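import Cfsg.Agent.L0.FrobMain
import Cfsg.Agent.H7.Components

/-!
# Solvable groups whose Sylow subgroups are cyclic or quaternion
-/

set_option autoImplicit false
set_option linter.unusedSectionVars false

namespace Cfsg.Agent.H4.CQ

open Subgroup Equiv QuaternionGroup

/-- The quaternion group of order eight. -/
abbrev Q8 := QuaternionGroup 2

/-- A numbering of `Q8`. -/
def code : Q8 → ℕ
  | a i => i.val
  | xa i => 4 + i.val

/-- The action of the automorphisms of `Q8` on four points. -/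
def tab : List (Perm (Fin 4)) := [1, 1, 1, 1, 1, 1, 1, 1, 1, 1, 1, 1, 1, swap 0 3 * swap 1 2 * swap 2 3, swap 0 1 * swap 2 3,
  swap 0 2 * swap 1 3 * swap 2 3, 1, 1, 1, 1, 1, 1, 1, 1, 1, 1, 1, 1, swap 0 2 * swap 1 3, swap 2
  3, swap 0 3 * swap 1 2, swap 0 1, 1, swap 0 3, 1, swap 0 1 * swap 1 3 * swap 2 3, 1, swap 0 2 *
  swap 1 2, 1, swap 1 2 * swap 2 3, 1, swap 0 1 * swap 1 2, 1, swap 0 2 * swap 2 3, swap 0 3 *
  swap 1 3 * swap 2 3, 1, swap 1 3, 1, 1, swap 0 2 * swap 1 2 * swap 2 3, 1, swap 1 2, 1, swap 0 1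
  * swap 1 3, 1, swap 0 3 * swap 2 3, 1, swap 1 3 * swap 2 3, 1, swap 0 3 * swap 1 3, swap 0 1 *
  swap 1 2 * swap 2 3, 1, swap 0 2, 1]

/-- The permutation belonging to the images of the generators. -/
def sg (u v : Q8) : Perm (Fin 4) := tab.getD (8 * code u + code v) 1

/-- The endomorphism with given images of the generators. -/
def ev (u v : Q8) : Q8 → Q8
  | a i => u ^ i.val
  | xa i => v * u ^ i.val

theorem sg_mul : ∀ u v u' v' : Q8, u * v ≠ v * u → u' * v' ≠ v' * u' →
    sg (ev u v u') (ev u v v') = sg u v * sg u' v' := by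
  decide +kernel

theorem sg_eq_one : ∀ u v : Q8, u * v ≠ v * u → sg u v = 1 → u = a 1 ∧ v = xa 0 := by
  decide +kernel

theorem aut_ev (α : MulAut Q8) (q : Q8) : α q = ev (α (a 1)) (α (xa 0)) q := by
  rcases q with i | i
  · rw [ev, ← map_pow, a_one_pow, ZMod.natCast_zmod_val]
  · rw [ev, ← map_pow, a_one_pow, ZMod.natCast_zmod_val, ← map_mul, xa_mul_a, zero_add]

theorem aut_ne (α : MulAut Q8) : α (a 1) * α (xa 0) ≠ α (xa 0) * α (a 1) := by
  rw [← map_mul, ← map_mul, Ne, α.apply_eq_iff_eq]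
  decide

/-- `Aut(Q₈)` embeds in `Sym(4)`. -/
def autHom : MulAut Q8 →* Perm (Fin 4) :=
  MonoidHom.mk' (fun α => sg (α (a 1)) (α (xa 0))) fun α β => by
    rw [← sg_mul _ _ _ _ (aut_ne α) (aut_ne β), ← aut_ev, ← aut_ev]
    rfl

theorem autHom_eq_one {α : MulAut Q8} (h : autHom α = 1) : α = 1 := by
  obtain ⟨h1, h2⟩ := sg_eq_one _ _ (aut_ne α) h
  ext q
  rw [aut_ev α, aut_ev 1, h1, h2]
  rfl

/-- The sign of a generalized quaternion group. -/
def quatHom (n : ℕ) : QuaternionGroup n →* Perm (Fin 4) :=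
  MonoidHom.mk' (fun q => match q with
    | a _ => 1
    | xa _ => swap 0 1) (by rintro (i | i) (j | j) <;> simp)

theorem aut_eq {T : Type*} [Group T] [Finite T] (hT : IsPGroup 2 T)
    (h : IsCyclic T ∨ ∃ n, Nonempty (T ≃* QuaternionGroup (2 ^ (n + 1 + 1)))) (α : MulAut T) {l : ℕ}
    (hl : Odd l) (hα : α ^ l = 1) (x : T) : α x = x := by
  rcases h with h | ⟨n, ⟨e⟩⟩
  · obtain ⟨g, hg⟩ := IsCyclic.exists_monoid_generator (α := T)
    obtain ⟨k, hk⟩ := hg (α g)
    obtain ⟨m, rfl⟩ := hg x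
    simp only [map_pow, S3382.cyc α l hl hα hT g k hk.symm]
  have h4 : ∀ i, ∃ k : ℕ, a i = (a 1 : QuaternionGroup (2 ^ (n + 1 + 1))) ^ k :=
    fun i => ⟨i.val, by rw [a_one_pow, ZMod.natCast_zmod_val]⟩
  have h5 : α (e.symm (.a 1)) = e.symm (.a 1) := by
    rcases h6 : e (α (e.symm (.a 1))) with i | i
    · obtain ⟨k, hk⟩ := h4 i
      exact S3382.cyc α l hl hα hT _ k (e.injective (by rw [h6, hk]; simp))
    · have h7 := xa_pow_four i
      rw [← h6, ← map_pow, ← map_pow, ← map_pow, map_eq_one_iff _ e.injective,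
        map_eq_one_iff _ α.injective, map_eq_one_iff _ e.symm.injective,
        ← orderOf_dvd_iff_pow_eq_one, orderOf_a_one] at h7
      have := Nat.le_of_dvd (by norm_num) h7
      have : 0 < 2 ^ n := by positivity
      omega
  refine S3382.top_step α l hl hα hT (fun x => ∃ i, e x = .a i) ?_ ?_ x
  · rintro x ⟨i, hi⟩
    obtain ⟨k, hk⟩ := h4 i
    rw [show x = e.symm (.a 1) ^ k from e.injective (by rw [hi, hk]; simp), map_pow, h5]
  · intro x y hx hy
    rcases h6 : e x with i | i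
    · exact absurd ⟨i, h6⟩ hx
    rcases h7 : e y with j | j
    · exact absurd ⟨j, h7⟩ hy
    exact ⟨e.symm (.a (j - i)), ⟨_, e.apply_symm_apply _⟩, e.injective (by simp [h6, h7])⟩

variable {H : Type*} [Group H] [Finite H]

theorem exists_hom_of_two (h : IsCyclic H ∨ ∃ n, Nonempty (H ≃* QuaternionGroup n)) :
    ∃ f : H →* Perm (Fin 4), ∀ x y, f x = 1 → f y = 1 → x * y = y * x := by
  rcases h with h | ⟨n, ⟨e⟩⟩
  · exact ⟨1, fun x y _ _ => (IsCyclic.isMulCommutative (α := H)).is_comm.comm x y⟩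
  refine ⟨(quatHom n).comp e.toMonoidHom, fun x y hx hy => e.injective ?_⟩
  have key : ∀ x, (quatHom n).comp e.toMonoidHom x = 1 → ∃ i, e x = a i := by
    intro x hx
    change quatHom n (e x) = 1 at hx
    rcases h1 : e x with i | i
    · exact ⟨i, rfl⟩
    · rw [h1] at hx
      exact absurd hx (show swap (0 : Fin 4) 1 ≠ 1 by decide)
  obtain ⟨i, hi⟩ := key x hx
  obtain ⟨j, hj⟩ := key y hy
  rw [map_mul, map_mul, hi, hj, a_mul_a, a_mul_a, add_comm]

theorem exists_hom_of_core [Group.IsSolvable H] (hO : pPrimeCore 2 H = ⊥)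
    (h : IsCyclic (pCore 2 H) ∨ ∃ n, Nonempty (pCore 2 H ≃* QuaternionGroup (2 ^ (n + 1)))) :
    ∃ f : H →* Perm (Fin 4), ∀ x y, f x = 1 → f y = 1 → x * y = y * x := by
  have hF : fittingSubgroup H = pCore 2 H := by
    refine le_antisymm ?_ (H7.pCore_le_fittingSubgroup Nat.prime_two)
    rw [← H7.fittingIn_top]
    refine H7.fittingIn_le_of_pCoreIn_le fun p hp => ?_
    rw [H7.pCoreIn_top]
    by_cases h2 : p = 2
    · rw [h2]
    · have := Fact.mk hp
      obtain ⟨k, hk⟩ := (H7.pCore_isPGroup p H).exists_card_eq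
      refine (H7.le_pPrimeCore (p := 2) inferInstance ?_).trans (hO ▸ bot_le)
      rw [hk]
      exact ((Nat.coprime_primes hp Nat.prime_two).mpr h2).pow_left k
  have hC : ∀ x : H, MulAut.conjNormal (H := pCore 2 H) x = 1 → x ∈ pCore 2 H ∧
      ∀ y ∈ pCore 2 H, x * y = y * x := by
    intro x hx
    have h1 : ∀ y ∈ pCore 2 H, x * y = y * x := fun y hy => by
      have := congrArg (fun α : MulAut (pCore 2 H) => (α ⟨y, hy⟩ : H)) hx
      simp only [MulAut.conjNormal_apply, MulAut.one_apply] at this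
      exact mul_inv_eq_iff_eq_mul.mp this
    refine ⟨?_, h1⟩
    have := H7.centralizer_fittingSubgroup_le H
    rw [hF] at this
    exact this fun y hy => (h1 y hy).symm
  have key : (IsCyclic (pCore 2 H) ∨
      ∃ n, Nonempty (pCore 2 H ≃* QuaternionGroup (2 ^ (n + 1 + 1)))) → pCore 2 H = ⊤ := by
    intro h1
    have := Fact.mk Nat.prime_two
    refine eq_top_iff.mpr (H7.le_pCore inferInstance (IsPGroup.of_card
      (Nat.eq_prime_pow_of_unique_prime_dvd Nat.card_pos.ne' fun {p} hp hd => ?_)))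
    by_contra h2
    have := Fact.mk hp
    rw [card_top] at hd
    obtain ⟨x, hx⟩ := exists_prime_orderOf_dvd_card' p hd
    have h3 := (hC x (MulEquiv.ext (aut_eq (H7.pCore_isPGroup 2 H) h1 _ (hp.odd_of_ne_two h2) (by
      rw [← map_pow, ← hx, pow_orderOf_eq_one, map_one])))).1
    obtain ⟨k, hk⟩ := (H7.pCore_isPGroup 2 H).exists_card_eq
    have h4 := (pCore 2 H).orderOf_dvd_natCard h3
    rw [hx, hk] at h4
    exact h2 ((Nat.prime_dvd_prime_iff_eq hp Nat.prime_two).mp (hp.dvd_of_dvd_pow h4))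
  rcases h with h | ⟨_ | n, ⟨e⟩⟩
  · have e := (MulEquiv.subgroupCongr (key (Or.inl h))).trans topEquiv
    exact exists_hom_of_two (Or.inl (isCyclic_of_surjective e e.surjective))
  · refine ⟨autHom.comp ((MulAut.congr e).toMonoidHom.comp MulAut.conjNormal), fun x y hx hy => ?_⟩
    exact (hC x ((map_eq_one_iff _ (MulAut.congr e).injective).mp (autHom_eq_one hx))).2 y
      (hC y ((map_eq_one_iff _ (MulAut.congr e).injective).mp (autHom_eq_one hy))).1
  · have e' := (MulEquiv.subgroupCongr (key (Or.inr ⟨n, ⟨e⟩⟩))).trans topEquiv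
    exact exists_hom_of_two (Or.inr ⟨_, ⟨e'.symm.trans e⟩⟩)

/-- A solvable group whose Sylow subgroups are cyclic or quaternion has a homomorphism to
`Sym(4)` whose kernel has cyclic Sylow subgroups. -/
theorem exists_hom {G : Type*} [Group G] [Finite G] [Group.IsSolvable G]
    (h : ∀ p : ℕ, p.Prime → ∀ P : Subgroup G, IsPGroup p P →
      IsCyclic P ∨ (p = 2 ∧ ∃ n, Nonempty (P ≃* QuaternionGroup (2 ^ (n + 1))))) :
    ∃ f : G →* Perm (Fin 4), ∀ (p : ℕ) [Fact p.Prime] (P : Sylow p f.ker), IsCyclic P := by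
  have := Fact.mk Nat.prime_two
  set O := pPrimeCore 2 G
  set π := QuotientGroup.mk' O
  have hπ : Function.Surjective π := QuotientGroup.mk'_surjective O
  have hinj : ∀ P : Subgroup G, IsPGroup 2 P → Function.Injective (π.comp P.subtype) := by
    intro P hP
    rw [injective_iff_map_eq_one]
    intro x hx
    obtain ⟨k, hk⟩ := hP.exists_card_eq
    have h1 := O.orderOf_dvd_natCard ((QuotientGroup.eq_one_iff x.1).mp hx)
    have h2 := orderOf_dvd_natCard x
    rw [hk] at h2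
    rw [orderOf_coe] at h1
    exact orderOf_eq_one_iff.mp (Nat.eq_one_of_dvd_coprimes
      ((H7.pPrimeCore_coprime 2 G).pow_right k) h1 h2)
  have hO : pPrimeCore 2 (G ⧸ O) = ⊥ := by
    have h1 : (pPrimeCore 2 (G ⧸ O)).comap π ≤ O := by
      refine H7.le_pPrimeCore inferInstance ?_
      have h2 : O ≤ (pPrimeCore 2 (G ⧸ O)).comap π := by
        conv_lhs => rw [← QuotientGroup.ker_mk' O]
        exact ker_le_comap _ _
      rw [← H7.card_mul_relIndex h2]
      refine (H7.pPrimeCore_coprime 2 G).mul_left ?_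
      conv_lhs => enter [1]; rw [← QuotientGroup.ker_mk' O]
      rw [relIndex_ker, map_comap_eq_self_of_surjective hπ]
      exact H7.pPrimeCore_coprime 2 _
    rw [eq_bot_iff, ← map_comap_eq_self_of_surjective hπ (pPrimeCore 2 (G ⧸ O)), map_le_iff_le_comap,
      MonoidHom.comap_bot, QuotientGroup.ker_mk']
    exact h1
  obtain ⟨f, hf⟩ := exists_hom_of_core hO (by
    obtain ⟨S, hS⟩ := (H7.pCore_isPGroup 2 (G ⧸ O)).exists_le_sylow
    obtain ⟨S, rfl⟩ := Sylow.mapSurjective_surjective hπ 2 S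
    set P := (pCore 2 (G ⧸ O)).comap π ⊓ S
    have hP : IsPGroup 2 P := S.isPGroup'.to_inf_right
    have h1 : (π.comp P.subtype).range = pCore 2 (G ⧸ O) := by
      rw [MonoidHom.range_comp, range_subtype]
      refine le_antisymm (map_le_iff_le_comap.mpr inf_le_left) fun x hx => ?_
      obtain ⟨y, hy, rfl⟩ := hS hx
      exact ⟨y, ⟨hx, hy⟩, rfl⟩
    have e := (MonoidHom.ofInjective (hinj P hP)).trans (MulEquiv.subgroupCongr h1)
    rcases h 2 Nat.prime_two P hP with h2 | ⟨-, n, ⟨e'⟩⟩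
    · exact Or.inl (isCyclic_of_surjective e e.surjective)
    · exact Or.inr ⟨n, ⟨e.symm.trans e'⟩⟩)
  refine ⟨f.comp π, fun p hp P => ?_⟩
  have hP := P.isPGroup'.map (f.comp π).ker.subtype
  rcases h p hp.out _ hP with h1 | ⟨rfl, n, ⟨e⟩⟩
  · exact isCyclic_of_surjective _
      (equivMapOfInjective (P : Subgroup (f.comp π).ker) _ (subtype_injective _)).symm.surjective
  · exfalso
    have h1 : e.symm (.a 1) * e.symm (.xa 0) = e.symm (.xa 0) * e.symm (.a 1) := by
      refine hinj _ hP ?_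
      rw [map_mul, map_mul]
      exact hf _ _ (map_subtype_le _ (e.symm _).2) (map_subtype_le _ (e.symm _).2)
    rw [← map_mul, ← map_mul, e.symm.apply_eq_iff_eq, a_mul_xa, xa_mul_a, xa.injEq] at h1
    have h2 : ((2 : ℕ) : ZMod (2 * 2 ^ (n + 1))) = 0 := by
      push_cast
      linear_combination -h1
    have h3 := Nat.le_of_dvd two_pos ((ZMod.natCast_eq_zero_iff _ _).mp h2)
    have : 0 < 2 ^ n := by positivity
    omega

end Cfsg.Agent.H4.CQ
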