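import Cfsg.Agent.H9.MaModel
import Cfsg.Agent.H4.MatCode
import Cfsg.Agent.H3.PermChar
import Cfsg.Agent.H3.CharInd
import Cfsg.Agent.H6.DegChar

/-!
# Permutation characters on families of blocks, and their kernel evaluation
-/

set_option autoImplicit false

namespace Cfsg.Agent.H4.Ed

open Equiv Finset Cfsg.Agent.Ma.Md
open scoped Classical

section Fam

variable {n : ℕ} (B ty : ℕ → ℕ) (N : ℕ)

/-- The number of blocks of type `t` fixed by `g`. -/
noncomputable def fo (t : ℕ) (g : Perm (Fin n)) : ℕ :=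
  #{j ∈ range N | ty (B j) = t ∧ ∀ x : Fin n, (B j).testBit (g x) = (B j).testBit x}

/-- `g` maps blocks to blocks of the same type. -/
def Cl (g : Perm (Fin n)) : Prop :=
  ∀ j < N, ∃ k < N, ty (B k) = ty (B j) ∧ ∀ x : Fin n, (B k).testBit (g x) = (B j).testBit x

/-- The permutations that respect the family. -/
def clM : Submonoid (Perm (Fin n)) where
  carrier := {g | Cl B ty N g}
  one_mem' := fun j hj => ⟨j, hj, rfl, fun _ => rfl⟩
  mul_mem' := fun {g h} hg hh j hj => by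
    obtain ⟨k, hk, e1, e2⟩ := hh j hj
    obtain ⟨l, hl, e3, e4⟩ := hg k hk
    exact ⟨l, hl, e3.trans e1, fun x => (e4 (h x)).trans (e2 x)⟩

/-- The permutations that respect the family, as a group. -/
def clG : Subgroup (Perm (Fin n)) where
  toSubmonoid := clM B ty N
  inv_mem' := fun {g} hg => by
    have : g⁻¹ = g ^ (orderOf g - 1) := by
      rw [inv_eq_iff_mul_eq_one, ← pow_succ', Nat.sub_add_cancel (orderOf_pos g), pow_orderOf_eq_one]
    rw [this]
    exact (clM B ty N).pow_mem hg _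

variable {B ty N}

theorem isChar_fo {K : Subgroup (Perm (Fin n))} (hK : K ≤ clG B ty N)
    (hinj : ∀ j < N, ∀ k < N, (∀ x : Fin n, (B j).testBit x = (B k).testBit x) → j = k) (t : ℕ) :
    IsCharacter K (fun g => (fo B ty N t g.1 : ℂ)) := by
  have hK' : ∀ g ∈ K, Cl B ty N g := hK
  choose! s hs1 hs2 hs3 using hK'
  let Ω := {j : Fin N // ty (B j) = t}
  let act : MulAction K Ω :=
    { smul := fun g j => ⟨⟨s g j.1, hs1 g g.2 j.1 j.1.2⟩, (hs2 g g.2 j.1 j.1.2).trans j.2⟩
      one_smul := fun j => Subtype.ext (Fin.ext (hinj _ (hs1 1 K.one_mem j.1 j.1.2) _ j.1.2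
        fun x => hs3 1 K.one_mem j.1 j.1.2 x))
      mul_smul := fun g h j => Subtype.ext (Fin.ext (hinj _ (hs1 _ (g * h).2 j.1 j.1.2) _
        (hs1 g g.2 _ (hs1 h h.2 j.1 j.1.2)) fun x => by
          obtain ⟨y, rfl⟩ := (g.1 * h.1).surjective x
          exact (hs3 _ (g * h).2 j.1 j.1.2 y).trans
            ((hs3 g g.2 _ (hs1 h h.2 j.1 j.1.2) (h.1 y)).trans (hs3 h h.2 j.1 j.1.2 y)).symm)) }
  convert H3.isCharacter_perm (G := K) (Ω := Ω) using 3 with g
  rw [fo, ← Nat.card_eq_finsetCard]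
  refine (Nat.card_congr (Equiv.ofBijective (fun j : MulAction.fixedBy Ω g => (⟨j.1.1.1, ?_⟩ :
    {j // j ∈ ({j ∈ range N | ty (B j) = t ∧
      ∀ x : Fin n, (B j).testBit (g.1 x) = (B j).testBit x} : Finset ℕ)}))
    ⟨fun a b h => Subtype.ext (Subtype.ext (Fin.ext (congrArg Subtype.val h))), fun j => ?_⟩)).symm
  · have e : s g j.1.1 = j.1.1 := congrArg (fun z : Ω => z.1.1) j.2
    refine mem_filter.mpr ⟨mem_range.mpr j.1.1.2, j.1.2, fun x => ?_⟩
    have := hs3 g g.2 _ j.1.1.2 x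
    rwa [e] at this
  · obtain ⟨h1, h2, h3⟩ := mem_filter.mp j.2
    have h1' := mem_range.mp h1
    refine ⟨⟨⟨⟨j.1, h1'⟩, h2⟩, Subtype.ext (Fin.ext (hinj _ (hs1 g g.2 _ h1') _ h1' fun x => ?_))⟩,
      rfl⟩
    obtain ⟨y, rfl⟩ := g.1.surjective x
    exact (hs3 g g.2 _ h1' y).trans (h3 y).symm

theorem inj_of_lt (h1 : ∀ j, B j < 2 ^ n) (h2 : ∀ j, j + 1 < N → B j < B (j + 1)) :
    ∀ j < N, ∀ k < N, (∀ x : Fin n, (B j).testBit x = (B k).testBit x) → j = k := by
  have h3 : ∀ k < N, ∀ j < k, B j < B k := by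
    intro k
    induction k with
    | zero => intro _ j hj; omega
    | succ k ih =>
      intro hk j hj
      rcases Nat.lt_succ_iff_lt_or_eq.mp hj with h | rfl
      · exact (ih (by omega) j h).trans (h2 k hk)
      · exact h2 j hk
  intro j hj k hk e
  have h4 : B j = B k := Nat.eq_of_testBit_eq fun i => by
    by_cases hi : i < n
    · exact e ⟨i, hi⟩
    · have := Nat.pow_le_pow_right (n := 2) (by norm_num) (not_lt.mp hi)
      rw [Nat.testBit_lt_two_pow ((h1 j).trans_le this), Nat.testBit_lt_two_pow ((h1 k).trans_le this)]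
  rcases lt_trichotomy j k with h | h | h
  · exact absurd h4 (h3 k hk j h).ne
  · exact h
  · exact absurd h4 (h3 j hj k h).ne'

end Fam

section Simd

/-- Bit `i` of `m`. -/
def bit (m i : ℕ) : ℕ := Nat.land (Nat.shiftRight m i) 1

theorem bit_eq (m i : ℕ) : bit m i = if m.testBit i then 1 else 0 := by
  change (m >>> i) &&& 1 = _
  rw [Nat.and_one_is_mod, Nat.shiftRight_eq_div_pow, ← Nat.toNat_testBit]
  cases m.testBit i <;> rfl

theorem bit_inj {m i m' i' : ℕ} (h : bit m i = bit m' i') : m.testBit i = m'.testBit i' := by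
  rw [bit_eq, bit_eq] at h
  revert h
  cases m.testBit i <;> cases m'.testBit i' <;> simp

/-- Disjunction. -/
noncomputable def orN (f : ℕ → ℕ) (n : ℕ) : ℕ := Nat.rec 0 (fun u ih => Nat.lor (f u) ih) n

theorem testBit_orN (f : ℕ → ℕ) (n i : ℕ) :
    (orN f n).testBit i = true ↔ ∃ x < n, (f x).testBit i = true := by
  induction n with
  | zero => simp [orN]
  | succ n ih =>
    change Nat.testBit (f n ||| orN f n) i = true ↔ _
    rw [Nat.testBit_or, Bool.or_eq_true, ih]
    refine ⟨?_, ?_⟩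
    · rintro (h | ⟨x, h1, h2⟩)
      · exact ⟨n, by omega, h⟩
      · exact ⟨x, by omega, h2⟩
    · rintro ⟨x, h1, h2⟩
      rcases Nat.lt_succ_iff_lt_or_eq.mp h1 with h | rfl
      · exact Or.inr ⟨x, h, h2⟩
      · exact Or.inl h2

/-- Packing by Horner's rule. -/
noncomputable def horn (w : ℕ) (f : ℕ → ℕ) (n : ℕ) : ℕ :=
  Nat.rec (motive := fun _ => ℕ → ℕ) (fun s => s)
    (fun i ih s => force (Nat.add (Nat.shiftLeft s w) (f i)) ih) n 0

theorem horn_eq (w : ℕ) (f : ℕ → ℕ) (n : ℕ) : horn w f n = pk w n f := by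
  have : ∀ s, Nat.rec (motive := fun _ => ℕ → ℕ) (fun s => s)
      (fun i ih s => force (Nat.add (Nat.shiftLeft s w) (f i)) ih) n s =
      s * 2 ^ (w * n) + pk w n f := by
    induction n with
    | zero => intro s; simp [pk]
    | succ n ih =>
      intro s
      change force (s <<< w + f n) _ = _
      rw [force_eq, ih, pk, pk, sum_range_succ, Nat.shiftLeft_eq]
      ring
  rw [horn, this, zero_mul, zero_add]

theorem pk_modEq (f n : ℕ) (a : ℕ → ℕ) : pk f n a ≡ ∑ i ∈ range n, a i [MOD 2 ^ f - 1] := by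
  refine Nat.ModEq.sum fun i _ => ?_
  have h : 2 ^ f ≡ 1 [MOD 2 ^ f - 1] :=
    ((Nat.modEq_iff_dvd' Nat.one_le_two_pow).mpr dvd_rfl).symm
  have := (h.pow i).mul_left (a i)
  rwa [one_pow, mul_one, ← pow_mul] at this

variable (B ty : ℕ → ℕ) (w N n : ℕ)

/-- The column of the point `x`. -/
noncomputable def col (x : ℕ) : ℕ := horn w (fun j => bit (B j) x) N

/-- The blocks of type `t`. -/
noncomputable def msk (t : ℕ) : ℕ := horn w (fun j => Bool.rec 0 1 (Nat.beq (ty (B j)) t)) N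

/-- The blocks that are moved. -/
noncomputable def dif (C f : ℕ → ℕ) : ℕ :=
  orN (fun x => force (Nat.shiftRight (f (Nat.mul 8 x)) 3) fun c => Nat.xor (C x) (C c)) n

theorem msk_eq (t : ℕ) : msk B ty w N t = pk w N fun j => if ty (B j) = t then 1 else 0 := by
  rw [msk, horn_eq]
  refine pk_congr fun j _ => ?_
  by_cases h : ty (B j) = t
  · rw [if_pos h, Nat.beq_eq.mpr h]
  · rw [if_neg h, Bool.eq_false_iff.mpr fun e => h (Nat.beq_eq.mp e)]

variable {B ty w N n}

theorem bit_lt (hw : 0 < w) (m i : ℕ) : bit m i < 2 ^ w := by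
  have := Nat.one_lt_two_pow hw.ne'
  rw [bit_eq]
  split_ifs <;> omega

theorem testBit_col (hw : 0 < w) (x : ℕ) {j : ℕ} (hj : j < N) :
    (col B w N x).testBit (w * j) = (B j).testBit x := by
  have h2 := pk_shift_mod (f := w) (n := N) (a := fun j => bit (B j) x)
    (fun j _ => bit_lt hw _ _) hj
  rw [col, horn_eq]
  have h3 := congrArg (fun z => z.testBit 0) h2
  simp only [Nat.testBit_mod_two_pow, hw, decide_true, Bool.true_and, Nat.testBit_shiftRight,
    add_zero] at h3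
  rw [h3, bit_eq]
  cases (B j).testBit x <;> rfl

theorem shift_eight (x : ℕ) : Nat.shiftRight (8 * x) 3 = x := by
  change (8 * x) >>> 3 = _
  rw [Nat.shiftRight_eq_div_pow]
  omega

theorem cnt_eq (hw : 0 < w) (hN : N < 2 ^ w - 1) {C : ℕ → ℕ} (hC : ∀ x < n, C x = col B w N x)
    {f : ℕ → ℕ} {g : Perm (Fin n)} (hf : RepF 8 f g) (t : ℕ) :
    Nat.mod (Nat.land (Nat.xor (dif n C f) (2 ^ (w * N) - 1)) (msk B ty w N t)) (2 ^ w - 1) =
      fo B ty N t g := by
  change (((_ : ℕ) ^^^ (_ : ℕ)) &&& (_ : ℕ)) % (_ : ℕ) = _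
  have h1 := Nat.one_lt_two_pow hw.ne'
  rw [msk_eq, land_pk (fun i _ => by split_ifs <;> omega), pk_modEq, fo, card_filter]
  rw [sum_congr rfl fun j hj => (show _ = if ty (B j) = t ∧
    ∀ x : Fin n, (B j).testBit (g x) = (B j).testBit x then 1 else 0 from ?_)]
  · refine Nat.mod_eq_of_lt (lt_of_le_of_lt ?_ hN)
    rw [← card_filter]
    exact (card_filter_le _ _).trans (card_range N).le
  have hj' := mem_range.mp hj
  by_cases h : ty (B j) = t
  · have h2 : w * j < w * N := Nat.mul_lt_mul_of_pos_left hj' hw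
    have h3 : ∀ x : Fin n, Nat.testBit (Nat.xor (C x) (C (Nat.shiftRight (f (Nat.mul 8 x)) 3)))
        (w * j) = ((B j).testBit x ^^ (B j).testBit (g x)) := fun x => by
      change Nat.testBit (C x ^^^ C (Nat.shiftRight (f (8 * x)) 3)) _ = _
      rw [hf x, shift_eight, Nat.testBit_xor, hC _ x.2, hC _ (g x).2, testBit_col hw _ hj',
        testBit_col hw _ hj']
    rw [if_pos h]
    refine (bit_eq _ _).trans (if_congr ?_ rfl rfl)
    rw [Nat.testBit_xor, Nat.testBit_two_pow_sub_one, decide_eq_true h2, Bool.xor_true,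
      Bool.not_eq_true', Bool.eq_false_iff, Ne, dif, testBit_orN, and_iff_right h]
    simp only [force_eq, not_exists, not_and]
    refine ⟨fun e x => ?_, fun e x hx => ?_⟩
    · have := e x x.2
      rw [h3] at this
      revert this
      cases (B j).testBit (g x) <;> cases (B j).testBit x <;> simp
    · rw [h3 ⟨x, hx⟩, e]
      simp
  · rw [if_neg h, if_neg fun e => h e.1, Nat.and_zero]

/-- The coded version of a function of the fixed block numbers. -/
noncomputable def run (B ty C : ℕ → ℕ) (w N n : ℕ) (ts : List ℕ) (F : List ℕ → ℕ)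
    (S : ((ℕ → ℕ) → ℕ) → ℕ) : ℕ :=
  force (2 ^ (w * N) - 1) fun M => force (2 ^ w - 1) fun q =>
    mapK (msk B ty w N) ts fun As => S fun f =>
      mapK (fun A => Nat.mod (Nat.land (Nat.xor (dif n C f) M) A) q) As F

theorem run_eq (hw : 0 < w) (hN : N < 2 ^ w - 1) {C : ℕ → ℕ} (hC : ∀ x < n, C x = col B w N x)
    (ts : List ℕ) (F : List ℕ → ℕ) (S : ((ℕ → ℕ) → ℕ) → ℕ) :
    ∃ φ : (ℕ → ℕ) → ℕ, run B ty C w N n ts F S = S φ ∧ ∀ f (g : Perm (Fin n)), RepF 8 f g →
      φ f = F (ts.map fun t => fo B ty N t g) := by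
  refine ⟨_, by simp only [run, force_eq, mapK_eq]; rfl, fun f g hf => ?_⟩
  simp only [List.map_map]
  congr 1
  exact List.map_congr_left fun t _ => cnt_eq hw hN hC hf t

/-- Binary search (untrusted). -/
noncomputable def bs (B : ℕ → ℕ) (N m k : ℕ) : ℕ :=
  Nat.rec (motive := fun _ => ℕ → ℕ) (fun s => s) (fun i ih s =>
    force (Nat.add s (Nat.shiftLeft 1 i)) fun u =>
      force (Bool.rec s (Bool.rec s u (Nat.ble (B u) m)) (Nat.blt u N)) ih) k 0

/-- The check that the coded permutation `s` respects the family. -/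
noncomputable def clChk (B ty : ℕ → ℕ) (N n s : ℕ) : Bool :=
  allB (fun j => force (B j) fun m =>
    force (sumF (fun x => Nat.shiftLeft (bit m x) (Nat.shiftRight (app 255 s (Nat.mul 8 x)) 3)) n)
      fun m' => force (bs B N m' 13) fun k => force (B k) fun u => band (Nat.blt k N)
        (band (Nat.beq (ty u) (ty m))
          (allB (fun x => Nat.beq (bit u (Nat.shiftRight (app 255 s (Nat.mul 8 x)) 3)) (bit m x)) n)))
    N

theorem Grp_le_clG {S : List ℕ} (h : allL (clChk B ty N n) S = true) :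
    Grp 8 255 n S ≤ clG B ty N := by
  rw [Grp, Subgroup.closure_le]
  rintro g ⟨c, hc, hr⟩ j hj
  have h1 := allB_iff.mp (allL_iff.mp h c hc) j hj
  simp only [force_eq, band_eq_true, allB_iff, Nat.blt_eq, Nat.beq_eq] at h1
  refine ⟨_, h1.1, h1.2.1, fun x => ?_⟩
  have h2 := bit_inj (h1.2.2 x x.2)
  have h3 : app 255 c (Nat.mul 8 x) = 8 * g x := hr x
  rwa [h3, shift_eight] at h2

end Simd

section Deg

/-- The square of the difference. -/
def dsq (x y : ℕ) : ℕ := Nat.mul (Nat.add (Nat.sub x y) (Nat.sub y x)) (Nat.add (Nat.sub x y) (Nat.sub y x))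

theorem dsq_cast (x y : ℕ) : (dsq x y : ℂ) = ((x : ℂ) - y) * (starRingEnd ℂ) ((x : ℂ) - y) := by
  simp only [map_sub, map_natCast, dsq, Nat.mul_eq, Nat.add_eq, Nat.sub_eq]
  rcases le_total x y with h | h
  · rw [Nat.sub_eq_zero_of_le h]; push_cast [h]; ring
  · rw [Nat.sub_eq_zero_of_le h]; push_cast [h]; ring

variable {G : Type*} [Group G] [Fintype G]

theorem norm_pair {P Q : G → ℕ} (hP : IsCharacter G fun g => (P g : ℂ))
    (hQ : IsCharacter G fun g => (Q g : ℂ)) (h : Q 1 < P 1) :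
    ∃ k : ℕ, 1 ≤ k ∧ ∑ g, dsq (P g) (Q g) = k * Nat.card G ∧ (k = 1 → P 1 - Q 1 ∈ charDegrees G) := by
  have hg : IsGeneralizedCharacter G ((fun g => (P g : ℂ)) - fun g => (Q g : ℂ)) := ⟨_, _, hP, hQ, rfl⟩
  obtain ⟨k, hk⟩ := H3.classInner_genChar_int hg hg
  have h0 : (Nat.card G : ℂ) ≠ 0 := by exact_mod_cast Nat.card_pos.ne'
  have h1 : ((∑ g, dsq (P g) (Q g) : ℕ) : ℂ) = k * Nat.card G := by
    rw [← hk, classInner, mul_comm, ← mul_assoc, mul_inv_cancel₀ h0, one_mul]
    push_cast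
    exact sum_congr rfl fun g _ => dsq_cast _ _
  have h2 : ((∑ g, dsq (P g) (Q g) : ℕ) : ℤ) = k * Nat.card G := by exact_mod_cast h1
  have h3 : 0 < ∑ g, dsq (P g) (Q g) := by
    refine lt_of_lt_of_le ?_ (single_le_sum (f := fun g => dsq (P g) (Q g))
      (fun _ _ => Nat.zero_le _) (mem_univ 1))
    simp only [dsq, Nat.mul_eq, Nat.add_eq, Nat.sub_eq]
    exact Nat.mul_pos (by omega) (by omega)
  have h4 : 0 < k := by
    by_contra h5
    have : k * (Nat.card G : ℤ) ≤ 0 := mul_nonpos_of_nonpos_of_nonneg (not_lt.mp h5) (by positivity)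
    omega
  lift k to ℕ using h4.le
  refine ⟨k, by omega, by exact_mod_cast h2, fun e => ?_⟩
  refine H6.mem_charDegrees.mpr ⟨_, H3.irr_of_genChar hg (by rw [hk, e]; simp) ?_, ?_⟩
  · simp only [Pi.sub_apply, Complex.sub_re, Complex.natCast_re, sub_nonneg, Nat.cast_le]
    exact h.le
  · simp [h.le]

theorem degs (l : List ((G → ℕ) × (G → ℕ)))
    (hl : ∀ p ∈ l, (IsCharacter G fun g => (p.1 g : ℂ)) ∧ (IsCharacter G fun g => (p.2 g : ℂ)) ∧
      p.2 1 < p.1 1)
    (hs : ∑ g, (l.map fun p => dsq (p.1 g) (p.2 g)).sum = l.length * Nat.card G) :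
    ∀ p ∈ l, p.1 1 - p.2 1 ∈ charDegrees G := by
  have key : ∀ l : List ((G → ℕ) × (G → ℕ)), (∀ p ∈ l, (IsCharacter G fun g => (p.1 g : ℂ)) ∧
      (IsCharacter G fun g => (p.2 g : ℂ)) ∧ p.2 1 < p.1 1) → ∃ k, l.length ≤ k ∧
      ∑ g, (l.map fun p => dsq (p.1 g) (p.2 g)).sum = k * Nat.card G ∧
      (k = l.length → ∀ p ∈ l, p.1 1 - p.2 1 ∈ charDegrees G) := by
    intro l
    induction l with
    | nil => exact fun _ => ⟨0, le_rfl, by simp, by simp⟩
    | cons a l ih =>
      intro h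
      obtain ⟨k, h1, h2, h3⟩ := ih fun p hp => h p (by simp [hp])
      obtain ⟨u1, u2, u3⟩ := h a (by simp)
      obtain ⟨k', h4, h5, h6⟩ := norm_pair u1 u2 u3
      refine ⟨k' + k, by simp; omega, ?_, fun e => ?_⟩
      · simp only [List.map_cons, List.sum_cons, sum_add_distrib, h2, h5, add_mul]
      · simp only [List.length_cons] at e
        rw [List.forall_mem_cons]
        exact ⟨h6 (by omega), h3 (by omega)⟩
  obtain ⟨k, -, h2, h3⟩ := key l hl
  exact h3 (Nat.eq_of_mul_eq_mul_right Nat.card_pos (h2.symm.trans hs))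

omit [Fintype G] in
theorem conj_eq {P : G → ℕ} (hP : IsCharacter G fun g => (P g : ℂ)) (h g : G) :
    P (h * g * h⁻¹) = P g := by
  exact_mod_cast H3.char_isClassFunction hP g h

end Deg

end Cfsg.Agent.H4.Ed
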