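import Cfsg.Agent.H4.EdA

/-!
# Sums of class functions over the large Mathieu groups
-/

set_option autoImplicit false
set_option maxRecDepth 100000

namespace Cfsg.Agent.H4.Ed

open Equiv Finset Cfsg.Agent.Ma.Md Cfsg.Spor Cfsg.Agent.H4.Golay
open scoped Classical

theorem Sm_step' {n : ℕ} {H : Subgroup (Perm (Fin n))} {Φ : Perm (Fin n) → ℕ}
    (hΦ : ∀ h ∈ H, ∀ g ∈ H, Φ (h * g * h⁻¹) = Φ g) {pre : List (Fin n)} {a : Fin n}
    (htr : ∀ c ∉ pre, ∃ h ∈ H, (∀ x ∈ pre, h x = x) ∧ h a = c) (l : List (Fin n × Fin n))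
    (b s : Fin n) (m : ℕ) (hd : (∀ p ∈ l, p.1 ≠ b ∧ p.2 ≠ s ∧ p.1 ∈ pre ∧ p.2 ∈ pre) ∧ b ∈ pre ∧
      s ∈ pre ∧ (∀ c ∈ pre, c = s ∨ ∃ p ∈ l, p.2 = c) ∧ #pre.toFinsetᶜ = m) :
    Sm H Φ l = Sm H Φ ((b, s) :: l) + m * Sm H Φ ((b, a) :: l) := by
  obtain ⟨h1, h2, h3, h4, rfl⟩ := hd
  have k1 : ∀ c, ∑ g ∈ {g | g ∈ H ∧ ∀ p ∈ l, g p.1 = p.2} with g b = c, Φ g =
      Sm H Φ ((b, c) :: l) := fun c => by
    simp only [Sm, filter_filter, List.forall_mem_cons]
    exact sum_congr (filter_congr fun _ _ => by tauto) fun _ _ => rfl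
  rw [Sm, ← sum_fiberwise (g := fun g => g b), ← sum_add_sum_compl pre.toFinset,
    sum_eq_single_of_mem s (List.mem_toFinset.mpr h3), k1, ← smul_eq_mul, ← sum_const]
  · congr 1
    refine sum_congr rfl fun c hc => ?_
    obtain ⟨h, hh, e1, rfl⟩ := htr c (by simpa using hc)
    have e2 : ∀ x ∈ pre, h⁻¹ x = x := fun x hx => Perm.inv_eq_iff_eq.mpr (e1 x hx).symm
    rw [k1]
    refine (sum_nbij' (fun g => h * g * h⁻¹) (fun g => h⁻¹ * g * h) (fun g hg => ?_)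
      (fun g hg => ?_) (fun _ _ => by group) (fun _ _ => by group)
      fun g hg => (hΦ h hh g (mem_filter.mp hg).2.1).symm).symm
    · simp only [mem_filter, mem_univ, true_and, List.forall_mem_cons, Perm.mul_apply] at hg ⊢
      exact ⟨H.mul_mem (H.mul_mem hh hg.1) (H.inv_mem hh), by rw [e2 b h2, hg.2.1], fun p hp => by
        rw [e2 _ (h1 p hp).2.2.1, hg.2.2 p hp, e1 _ (h1 p hp).2.2.2]⟩
    · simp only [mem_filter, mem_univ, true_and, List.forall_mem_cons, Perm.mul_apply] at hg ⊢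
      exact ⟨H.mul_mem (H.mul_mem (H.inv_mem hh) hg.1) hh, by
        rw [e1 b h2, hg.2.1, Perm.inv_eq_iff_eq], fun p hp => by
        rw [e1 _ (h1 p hp).2.2.1, hg.2.2 p hp, e2 _ (h1 p hp).2.2.2]⟩
  · intro c hc hn
    obtain ⟨p, hp, rfl⟩ := (h4 c (List.mem_toFinset.mp hc)).resolve_left hn
    refine sum_eq_zero fun g hg => absurd (g.injective ?_) (h1 p hp).1
    simp only [mem_filter, mem_univ, true_and] at hg
    rw [hg.1.2 p hp, hg.2]

/-- The sum over a coset of the stabilizer of four points. -/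
noncomputable def E (φ : (ℕ → ℕ) → ℕ) (t : ℕ) : ℕ := esum 255 φ [L4, L5, L6] (app 255 t)

/-- The data of a summation. -/
structure Dat (F : List (Fin 24)) (K : Subgroup (Perm (Fin 24))) (Φ : Perm (Fin 24) → ℕ)
    (φ : (ℕ → ℕ) → ℕ) : Prop where
  hK : ∀ k, k ∈ K ↔ k ∈ H0 ∧ ∀ x ∈ F, k x = x
  hφ : ∀ f g, RepF 8 f g → φ f = Φ g
  hΦ : ∀ h ∈ K, ∀ g ∈ K, Φ (h * g * h⁻¹) = Φ g

variable {F : List (Fin 24)} {K : Subgroup (Perm (Fin 24))} {Φ : Perm (Fin 24) → ℕ}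
  {φ : (ℕ → ℕ) → ℕ}

theorem Dat.leaf (D : Dat F K Φ φ) (a b c d : Fin 24) (t i j k l : ℕ)
    (h1 : wordChk 8 255 24 t [] [T0.get i, T1.get j, T2.get k, T3.get l] = true ∧ i < 24 ∧ j < 23 ∧
      k < 22 ∧ l < 21 ∧ ∀ p ∈ [((3 : Fin 24), d), (1, c), (0, b), (23, a)],
        app 255 t (8 * p.1) = 8 * p.2)
    (h2 : ∀ x ∈ F, (x, x) ∈ [((3 : Fin 24), d), (1, c), (0, b), (23, a)]) :
    Sm K Φ [(3, d), (1, c), (0, b), (23, a)] = E φ t := by
  have hG := (ok.good (by norm_num) s0).mem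
  obtain ⟨g, hg, hr⟩ := wordChk_sound (H := Grp 8 255 24 L0.S) h1.1 (by simp) (by
    simp only [List.forall_mem_cons]
    exact ⟨hG L0 (by simp [ch]) i h1.2.1, hG L1 (by simp [ch]) j h1.2.2.1,
      hG L2 (by simp [ch]) k h1.2.2.2.1, hG L3 (by simp [ch]) l h1.2.2.2.2.1, by simp⟩)
  rw [← H0_eq] at hg
  have h3 : ∀ p ∈ [((3 : Fin 24), d), (1, c), (0, b), (23, a)], g p.1 = p.2 := fun p hp =>
    Fin.ext (Nat.eq_of_mul_eq_mul_left (by norm_num) ((hr p.1).symm.trans (h1.2.2.2.2.2 p hp)))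
  have h4 : ∀ x ∈ F, x ∈ [(3 : Fin 24), 1, 0, 23] := fun x hx => by
    simpa using List.mem_map_of_mem (f := Prod.fst) (h2 x hx)
  have hg' : g ∈ K := (D.hK g).mpr ⟨hg, fun x hx => h3 _ (h2 x hx)⟩
  rw [E, esum_eq (H := K) (by norm_num) (fun f g _ => D.hφ f g) ok.2.2.2.2.2.2.2.2 s4
    (fun k hk => (D.hK k).mpr ⟨(m4.mp hk).1, fun x hx => (m4.mp hk).2 x (h4 x hx)⟩) hg' hr]
  refine Sm_leaf (fun k => m4.trans ?_) hg' h3
  rw [D.hK]
  refine ⟨fun h => ⟨⟨h.1, fun x hx => h.2 x (h4 x hx)⟩, by simpa using h.2⟩,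
    fun h => ⟨h.1.1, by simpa using h.2⟩⟩

theorem Dat.tr (D : Dat F K Φ φ) {pre : List (Fin 24)} {a : Fin 24}
    (htr : ∀ c ∉ pre, ∃ h ∈ H0, (∀ x ∈ pre, h x = x) ∧ h a = c) (hF : ∀ x ∈ F, x ∈ pre) :
    ∀ c ∉ pre, ∃ h ∈ K, (∀ x ∈ pre, h x = x) ∧ h a = c := fun c hc => by
  obtain ⟨h, h1, h2, h3⟩ := htr c hc
  exact ⟨h, (D.hK h).mpr ⟨h1, fun x hx => h2 x (hF x hx)⟩, h2, h3⟩

/-- A coset representative. -/
def r0000 : ℕ := nat_lit 4528587414232371672327021198331688533828430582248316602368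

theorem Dat.n0000 (D : Dat F K Φ φ) (hF : ∀ x ∈ F, x ∈ [(0 : Fin 24), 23]) :
    Sm K Φ [(3, 3), (1, 1), (0, 0), (23, 23)] = E φ r0000 :=
  D.leaf _ _ _ _ _ 0 0 0 0 (by decide +kernel) (fun x hx => by have := hF x hx; clear hx; revert x; decide)

/-- A coset representative. -/
def r0001 : ℕ := nat_lit 4518599079391805053346219981517273593770615946600906754048

theorem Dat.n0001 (D : Dat F K Φ φ) (hF : ∀ x ∈ F, x ∈ [(0 : Fin 24), 23]) :
    Sm K Φ [(3, 6), (1, 1), (0, 0), (23, 23)] = E φ r0001 :=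
  D.leaf _ _ _ _ _ 0 0 0 18 (by decide +kernel) (fun x hx => by have := hF x hx; clear hx; revert x; decide)

/-- A coset representative. -/
def r0010 : ℕ := nat_lit 4517835987824427873290482357242745412769868011652803729408

theorem Dat.n0010 (D : Dat F K Φ φ) (hF : ∀ x ∈ F, x ∈ [(0 : Fin 24), 23]) :
    Sm K Φ [(3, 1), (1, 3), (0, 0), (23, 23)] = E φ r0010 :=
  D.leaf _ _ _ _ _ 0 0 7 4 (by decide +kernel) (fun x hx => by have := hF x hx; clear hx; revert x; decide)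

/-- A coset representative. -/
def r0011 : ℕ := nat_lit 4526997931546168037038815764243106902004137528294314088448

theorem Dat.n0011 (D : Dat F K Φ φ) (hF : ∀ x ∈ F, x ∈ [(0 : Fin 24), 23]) :
    Sm K Φ [(3, 6), (1, 3), (0, 0), (23, 23)] = E φ r0011 :=
  D.leaf _ _ _ _ _ 0 0 7 17 (by decide +kernel) (fun x hx => by have := hF x hx; clear hx; revert x; decide)

/-- A coset representative. -/
def r0100 : ℕ := nat_lit 4517057592738893654521244829308246394843538570714729676808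

theorem Dat.n0100 (D : Dat F K Φ φ) (hF : ∀ x ∈ F, x ∈ [(23 : Fin 24)]) :
    Sm K Φ [(3, 3), (1, 0), (0, 1), (23, 23)] = E φ r0100 :=
  D.leaf _ _ _ _ _ 0 16 19 15 (by decide +kernel) (fun x hx => by have := hF x hx; clear hx; revert x; decide)

/-- A coset representative. -/
def r0101 : ℕ := nat_lit 4525525322676763199429791288728834448923248302907675115528

theorem Dat.n0101 (D : Dat F K Φ φ) (hF : ∀ x ∈ F, x ∈ [(23 : Fin 24)]) :
    Sm K Φ [(3, 6), (1, 0), (0, 1), (23, 23)] = E φ r0101 :=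
  D.leaf _ _ _ _ _ 0 16 19 19 (by decide +kernel) (fun x hx => by have := hF x hx; clear hx; revert x; decide)

/-- A coset representative. -/
def r0110 : ℕ := nat_lit 4527004011529272385046563714125974168814599180593792030728

theorem Dat.n0110 (D : Dat F K Φ φ) (hF : ∀ x ∈ F, x ∈ [(23 : Fin 24)]) :
    Sm K Φ [(3, 0), (1, 3), (0, 1), (23, 23)] = E φ r0110 :=
  D.leaf _ _ _ _ _ 0 16 5 1 (by decide +kernel) (fun x hx => by have := hF x hx; clear hx; revert x; decide)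

/-- A coset representative. -/
def r0111 : ℕ := nat_lit 4523983835751769508959549693159282350266883957721219471368

theorem Dat.n0111 (D : Dat F K Φ φ) (hF : ∀ x ∈ F, x ∈ [(23 : Fin 24)]) :
    Sm K Φ [(3, 6), (1, 3), (0, 1), (23, 23)] = E φ r0111 :=
  D.leaf _ _ _ _ _ 0 16 5 18 (by decide +kernel) (fun x hx => by have := hF x hx; clear hx; revert x; decide)

/-- A coset representative. -/
def r1000 : ℕ := nat_lit 13032339718617400096621495403911187048944608625115531448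

theorem Dat.n1000 (D : Dat F K Φ φ) (hF : ∀ x ∈ F, x ∈ ([] : List (Fin 24))) :
    Sm K Φ [(3, 3), (1, 1), (0, 23), (23, 0)] = E φ r1000 :=
  D.leaf _ _ _ _ _ 1 0 9 1 (by decide +kernel) (fun x hx => by have := hF x hx; clear hx; revert x; decide)

/-- A coset representative. -/
def r1001 : ℕ := nat_lit 6160171172153454107103780826127229641677161592673798328

theorem Dat.n1001 (D : Dat F K Φ φ) (hF : ∀ x ∈ F, x ∈ ([] : List (Fin 24))) :
    Sm K Φ [(3, 6), (1, 1), (0, 23), (23, 0)] = E φ r1001 :=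
  D.leaf _ _ _ _ _ 1 0 9 7 (by decide +kernel) (fun x hx => by have := hF x hx; clear hx; revert x; decide)

/-- A coset representative. -/
def r1010 : ℕ := nat_lit 7680670663146595780493889365258734130630548458438662328

theorem Dat.n1010 (D : Dat F K Φ φ) (hF : ∀ x ∈ F, x ∈ ([] : List (Fin 24))) :
    Sm K Φ [(3, 1), (1, 3), (0, 23), (23, 0)] = E φ r1010 :=
  D.leaf _ _ _ _ _ 1 0 2 2 (by decide +kernel) (fun x hx => by have := hF x hx; clear hx; revert x; decide)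

/-- A coset representative. -/
def r1011 : ℕ := nat_lit 11508764818728583570225014790147585354462873470634563768

theorem Dat.n1011 (D : Dat F K Φ φ) (hF : ∀ x ∈ F, x ∈ ([] : List (Fin 24))) :
    Sm K Φ [(3, 6), (1, 3), (0, 23), (23, 0)] = E φ r1011 :=
  D.leaf _ _ _ _ _ 1 0 2 8 (by decide +kernel) (fun x hx => by have := hF x hx; clear hx; revert x; decide)

/-- A coset representative. -/
def r1100 : ℕ := nat_lit 11556690104788284047227106265512184735094297483737610248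

theorem Dat.n1100 (D : Dat F K Φ φ) (hF : ∀ x ∈ F, x ∈ ([] : List (Fin 24))) :
    Sm K Φ [(3, 3), (1, 23), (0, 1), (23, 0)] = E φ r1100 :=
  D.leaf _ _ _ _ _ 1 11 8 12 (by decide +kernel) (fun x hx => by have := hF x hx; clear hx; revert x; decide)

/-- A coset representative. -/
def r1101 : ℕ := nat_lit 3891137494488854729146937788333397406021780662521477128

theorem Dat.n1101 (D : Dat F K Φ φ) (hF : ∀ x ∈ F, x ∈ ([] : List (Fin 24))) :
    Sm K Φ [(3, 6), (1, 23), (0, 1), (23, 0)] = E φ r1101 :=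
  D.leaf _ _ _ _ _ 1 11 8 19 (by decide +kernel) (fun x hx => by have := hF x hx; clear hx; revert x; decide)

/-- A coset representative. -/
def r1110 : ℕ := nat_lit 4636456744532270413144458408433347452828106643601889288

theorem Dat.n1110 (D : Dat F K Φ φ) (hF : ∀ x ∈ F, x ∈ ([] : List (Fin 24))) :
    Sm K Φ [(3, 23), (1, 3), (0, 1), (23, 0)] = E φ r1110 :=
  D.leaf _ _ _ _ _ 1 11 16 2 (by decide +kernel) (fun x hx => by have := hF x hx; clear hx; revert x; decide)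

/-- A coset representative. -/
def r1111 : ℕ := nat_lit 3879293574427117071551359960767066843565801723488901128

theorem Dat.n1111 (D : Dat F K Φ φ) (hF : ∀ x ∈ F, x ∈ ([] : List (Fin 24))) :
    Sm K Φ [(3, 6), (1, 3), (0, 1), (23, 0)] = E φ r1111 :=
  D.leaf _ _ _ _ _ 1 11 16 10 (by decide +kernel) (fun x hx => by have := hF x hx; clear hx; revert x; decide)

/-- A partial sum. -/
noncomputable def S000 (φ : (ℕ → ℕ) → ℕ) : ℕ := Nat.add (E φ r0000) (Nat.mul 20 (E φ r0001))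

theorem Dat.n000 (D : Dat F K Φ φ) (hF : ∀ x ∈ F, x ∈ [(0 : Fin 24), 23]) :
    Sm K Φ [(1, 1), (0, 0), (23, 23)] = S000 φ :=
  (Sm_step' D.hΦ (D.tr t4 (fun x hx => by have := hF x hx; clear hx; revert x; decide)) _ 3 3 20
    (by decide +kernel)).trans (congrArg₂ (fun x y => x + 20 * y) (D.n0000 hF) (D.n0001 hF))

/-- A partial sum. -/
noncomputable def S001 (φ : (ℕ → ℕ) → ℕ) : ℕ := Nat.add (E φ r0010) (Nat.mul 20 (E φ r0011))

theorem Dat.n001 (D : Dat F K Φ φ) (hF : ∀ x ∈ F, x ∈ [(0 : Fin 24), 23]) :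
    Sm K Φ [(1, 3), (0, 0), (23, 23)] = S001 φ :=
  (Sm_step' D.hΦ (D.tr t4 (fun x hx => by have := hF x hx; clear hx; revert x; decide)) _ 3 1 20
    (by decide +kernel)).trans (congrArg₂ (fun x y => x + 20 * y) (D.n0010 hF) (D.n0011 hF))

/-- A partial sum. -/
noncomputable def S010 (φ : (ℕ → ℕ) → ℕ) : ℕ := Nat.add (E φ r0100) (Nat.mul 20 (E φ r0101))

theorem Dat.n010 (D : Dat F K Φ φ) (hF : ∀ x ∈ F, x ∈ [(23 : Fin 24)]) :
    Sm K Φ [(1, 0), (0, 1), (23, 23)] = S010 φ :=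
  (Sm_step' D.hΦ (D.tr t4 (fun x hx => by have := hF x hx; clear hx; revert x; decide)) _ 3 3 20
    (by decide +kernel)).trans (congrArg₂ (fun x y => x + 20 * y) (D.n0100 hF) (D.n0101 hF))

/-- A partial sum. -/
noncomputable def S011 (φ : (ℕ → ℕ) → ℕ) : ℕ := Nat.add (E φ r0110) (Nat.mul 20 (E φ r0111))

theorem Dat.n011 (D : Dat F K Φ φ) (hF : ∀ x ∈ F, x ∈ [(23 : Fin 24)]) :
    Sm K Φ [(1, 3), (0, 1), (23, 23)] = S011 φ :=
  (Sm_step' D.hΦ (D.tr t4 (fun x hx => by have := hF x hx; clear hx; revert x; decide)) _ 3 0 20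
    (by decide +kernel)).trans (congrArg₂ (fun x y => x + 20 * y) (D.n0110 hF) (D.n0111 hF))

/-- A partial sum. -/
noncomputable def S100 (φ : (ℕ → ℕ) → ℕ) : ℕ := Nat.add (E φ r1000) (Nat.mul 20 (E φ r1001))

theorem Dat.n100 (D : Dat F K Φ φ) (hF : ∀ x ∈ F, x ∈ ([] : List (Fin 24))) :
    Sm K Φ [(1, 1), (0, 23), (23, 0)] = S100 φ :=
  (Sm_step' D.hΦ (D.tr t4 (fun x hx => by have := hF x hx; clear hx; revert x; decide)) _ 3 3 20
    (by decide +kernel)).trans (congrArg₂ (fun x y => x + 20 * y) (D.n1000 hF) (D.n1001 hF))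

/-- A partial sum. -/
noncomputable def S101 (φ : (ℕ → ℕ) → ℕ) : ℕ := Nat.add (E φ r1010) (Nat.mul 20 (E φ r1011))

theorem Dat.n101 (D : Dat F K Φ φ) (hF : ∀ x ∈ F, x ∈ ([] : List (Fin 24))) :
    Sm K Φ [(1, 3), (0, 23), (23, 0)] = S101 φ :=
  (Sm_step' D.hΦ (D.tr t4 (fun x hx => by have := hF x hx; clear hx; revert x; decide)) _ 3 1 20
    (by decide +kernel)).trans (congrArg₂ (fun x y => x + 20 * y) (D.n1010 hF) (D.n1011 hF))

/-- A partial sum. -/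
noncomputable def S110 (φ : (ℕ → ℕ) → ℕ) : ℕ := Nat.add (E φ r1100) (Nat.mul 20 (E φ r1101))

theorem Dat.n110 (D : Dat F K Φ φ) (hF : ∀ x ∈ F, x ∈ ([] : List (Fin 24))) :
    Sm K Φ [(1, 23), (0, 1), (23, 0)] = S110 φ :=
  (Sm_step' D.hΦ (D.tr t4 (fun x hx => by have := hF x hx; clear hx; revert x; decide)) _ 3 3 20
    (by decide +kernel)).trans (congrArg₂ (fun x y => x + 20 * y) (D.n1100 hF) (D.n1101 hF))

/-- A partial sum. -/
noncomputable def S111 (φ : (ℕ → ℕ) → ℕ) : ℕ := Nat.add (E φ r1110) (Nat.mul 20 (E φ r1111))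

theorem Dat.n111 (D : Dat F K Φ φ) (hF : ∀ x ∈ F, x ∈ ([] : List (Fin 24))) :
    Sm K Φ [(1, 3), (0, 1), (23, 0)] = S111 φ :=
  (Sm_step' D.hΦ (D.tr t4 (fun x hx => by have := hF x hx; clear hx; revert x; decide)) _ 3 23 20
    (by decide +kernel)).trans (congrArg₂ (fun x y => x + 20 * y) (D.n1110 hF) (D.n1111 hF))

/-- A partial sum. -/
noncomputable def S00 (φ : (ℕ → ℕ) → ℕ) : ℕ := Nat.add (S000 φ) (Nat.mul 21 (S001 φ))

theorem Dat.n00 (D : Dat F K Φ φ) (hF : ∀ x ∈ F, x ∈ [(0 : Fin 24), 23]) :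
    Sm K Φ [(0, 0), (23, 23)] = S00 φ :=
  (Sm_step' D.hΦ (D.tr t3 (fun x hx => by have := hF x hx; clear hx; revert x; decide)) _ 1 1 21
    (by decide +kernel)).trans (congrArg₂ (fun x y => x + 21 * y) (D.n000 hF) (D.n001 hF))

/-- A partial sum. -/
noncomputable def S01 (φ : (ℕ → ℕ) → ℕ) : ℕ := Nat.add (S010 φ) (Nat.mul 21 (S011 φ))

theorem Dat.n01 (D : Dat F K Φ φ) (hF : ∀ x ∈ F, x ∈ [(23 : Fin 24)]) :
    Sm K Φ [(0, 1), (23, 23)] = S01 φ :=
  (Sm_step' D.hΦ (D.tr t3 (fun x hx => by have := hF x hx; clear hx; revert x; decide)) _ 1 0 21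
    (by decide +kernel)).trans (congrArg₂ (fun x y => x + 21 * y) (D.n010 hF) (D.n011 hF))

/-- A partial sum. -/
noncomputable def S10 (φ : (ℕ → ℕ) → ℕ) : ℕ := Nat.add (S100 φ) (Nat.mul 21 (S101 φ))

theorem Dat.n10 (D : Dat F K Φ φ) (hF : ∀ x ∈ F, x ∈ ([] : List (Fin 24))) :
    Sm K Φ [(0, 23), (23, 0)] = S10 φ :=
  (Sm_step' D.hΦ (D.tr t3 (fun x hx => by have := hF x hx; clear hx; revert x; decide)) _ 1 1 21
    (by decide +kernel)).trans (congrArg₂ (fun x y => x + 21 * y) (D.n100 hF) (D.n101 hF))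

/-- A partial sum. -/
noncomputable def S11 (φ : (ℕ → ℕ) → ℕ) : ℕ := Nat.add (S110 φ) (Nat.mul 21 (S111 φ))

theorem Dat.n11 (D : Dat F K Φ φ) (hF : ∀ x ∈ F, x ∈ ([] : List (Fin 24))) :
    Sm K Φ [(0, 1), (23, 0)] = S11 φ :=
  (Sm_step' D.hΦ (D.tr t3 (fun x hx => by have := hF x hx; clear hx; revert x; decide)) _ 1 23 21
    (by decide +kernel)).trans (congrArg₂ (fun x y => x + 21 * y) (D.n110 hF) (D.n111 hF))

/-- A partial sum. -/
noncomputable def S0 (φ : (ℕ → ℕ) → ℕ) : ℕ := Nat.add (S00 φ) (Nat.mul 22 (S01 φ))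

theorem Dat.n0 (D : Dat F K Φ φ) (hF : ∀ x ∈ F, x ∈ [(23 : Fin 24)]) :
    Sm K Φ [(23, 23)] = S0 φ :=
  (Sm_step' D.hΦ (D.tr t2 (fun x hx => by have := hF x hx; clear hx; revert x; decide)) _ 0 0 22
    (by decide +kernel)).trans (congrArg₂ (fun x y => x + 22 * y) (D.n00 (fun x hx => by have := hF x hx; clear hx; revert x; decide)) (D.n01 hF))

/-- A partial sum. -/
noncomputable def S1 (φ : (ℕ → ℕ) → ℕ) : ℕ := Nat.add (S10 φ) (Nat.mul 22 (S11 φ))

theorem Dat.n1 (D : Dat F K Φ φ) (hF : ∀ x ∈ F, x ∈ ([] : List (Fin 24))) :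
    Sm K Φ [(23, 0)] = S1 φ :=
  (Sm_step' D.hΦ (D.tr t2 (fun x hx => by have := hF x hx; clear hx; revert x; decide)) _ 0 23 22
    (by decide +kernel)).trans (congrArg₂ (fun x y => x + 22 * y) (D.n10 hF) (D.n11 hF))

/-- A partial sum. -/
noncomputable def S (φ : (ℕ → ℕ) → ℕ) : ℕ := Nat.add (S0 φ) (Nat.mul 23 (S1 φ))

theorem Dat.n (D : Dat F K Φ φ) (hF : ∀ x ∈ F, x ∈ ([] : List (Fin 24))) :
    Sm K Φ [] = S φ :=
  (Sm_step' D.hΦ (D.tr t1 (fun x hx => by have := hF x hx; clear hx; revert x; decide)) _ 23 23 23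
    (by decide +kernel)).trans (congrArg₂ (fun x y => x + 23 * y) (D.n0 (fun x hx => by have := hF x hx; clear hx; revert x; decide)) (D.n1 hF))

end Cfsg.Agent.H4.Ed
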