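import Cfsg.Agent.H4.ThetaFrame
import Cfsg.Prelude.Def_Spor_Conway

/-!
# The frame attached to an automorphism of order 23 of an even unimodular lattice without roots
-/

set_option autoImplicit false

namespace Cfsg.Agent.H4.LeechId

open Module Finset

variable {U : Type*} [AddCommGroup U] [Module ℚ U] [FiniteDimensional ℚ U]
  (h24 : finrank ℚ U = 24) (B : LinearMap.BilinForm ℚ U)

include h24 in
omit [FiniteDimensional ℚ U] in
theorem parseval {v : GolayPt → U} (vo : ∀ p q, B (v p) (v q) = if p = q then 8 else 0) (a : U) :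
    (8 : ℚ) • a = ∑ p, B a (v p) • v p := by
  have li : LinearIndependent ℚ v := LinearMap.BilinForm.linearIndependent_of_iIsOrtho (B := B)
    (fun p q h => (vo p q).trans (if_neg h)) fun p h => by simpa using (vo p p).symm.trans h
  let b := basisOfLinearIndependentOfCardEqFinrank li (by rw [h24]; rfl)
  have hb : ∑ p, b.repr a p • v p = a := by simpa [b] using b.sum_repr a
  generalize b.repr a = c at hb
  subst hb
  simp only [map_sum, map_smul, LinearMap.sum_apply, LinearMap.smul_apply, smul_eq_mul, vo,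
    mul_ite, mul_zero, sum_ite_eq', mem_univ, if_true, smul_sum, smul_smul, mul_comm (8 : ℚ)]

variable (hs : ∀ x y, B x y = B y x)
  (N : Submodule ℤ U) (fg : N.FG) (sp : Submodule.span ℚ (N : Set U) = ⊤)
  (ev : ∀ x ∈ N, ∃ k : ℤ, B x x = 2 * k) (mn : ∀ x ∈ N, x ≠ 0 → 4 ≤ B x x)
  (sd : ∀ y, (∀ x ∈ N, ∃ k : ℤ, B y x = k) → y ∈ N)
  (X : Module.End ℚ U) (hX : ∀ a b, B (X a) (X b) = B a b) (XN : ∀ a ∈ N, X a ∈ N)
  (h23 : X ^ 23 = 1) {u t : U} (hu : u ∈ N) (ht : t ∈ N) (Xu : X u = u) (Xt : X t = t)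
  (uu : B u u = 4) (ut : B u t = 1) (tt : B t t = 6)
  (hf : ∀ y, X y = y → ∃ a b : ℚ, y = a • u + b • t)

include hs ev in
omit [FiniteDimensional ℚ U] in
theorem int_of_ev : ∀ x ∈ N, ∀ y ∈ N, ∃ k : ℤ, B x y = k := fun x hx y hy => by
  obtain ⟨a, ha⟩ := ev x hx
  obtain ⟨b, hb⟩ := ev y hy
  obtain ⟨c, hc⟩ := ev _ (add_mem hx hy)
  simp only [map_add, LinearMap.add_apply, hs y x] at hc
  exact ⟨c - a - b, by push_cast; linarith⟩

include h24 hs fg sp ev mn sd hX XN h23 hu ht Xu Xt uu ut tt hf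

theorem frame : ∃ v : GolayPt → U, (∀ p, ∃ z ∈ N, v p = (t - u) + (2 : ℤ) • z) ∧
    (∀ p q, B (v p) (v q) = if p = q then 8 else 0) ∧ v none = t - u ∧
    (∀ i, X (v (some i)) = v (some (i + 1))) ∧ ∀ i, B u (v (some i)) = 1 := by
  have sN := sub_mem ht hu
  have us : B u (t - u) = -3 := by rw [map_sub, ut, uu]; norm_num
  have ts : B t (t - u) = 5 := by rw [map_sub, hs t u, ut, tt]; norm_num
  have ss : B (t - u) (t - u) = 8 := by
    rw [map_sub B, LinearMap.sub_apply, us, ts]; norm_num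
  have Xs : X (t - u) = t - u := by rw [map_sub, Xu, Xt]
  have h48 := Theta.frame48 h24 B hs N fg sp ev mn sd sN ss
  generalize t - u = s at *
  set F := {e | e ∈ N ∧ B e e = 8 ∧ ∃ z ∈ N, e = s + (2 : ℤ) • z}
  have neg : ∀ e ∈ F, -e ∈ F := by
    rintro _ ⟨h1, h2, z, hz, rfl⟩
    exact ⟨neg_mem h1, by simpa only [map_neg, LinearMap.neg_apply, neg_neg] using h2,
      -s - z, sub_mem (neg_mem sN) hz, by module⟩
  have o1 : ∀ e ∈ F, ∀ e' ∈ F, e ≠ e' → B e e' ≤ 0 := by
    rintro e ⟨-, h2, z, hz, h3⟩ e' ⟨-, h2', z', hz', h3'⟩ h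
    have h4 : e - e' = (2 : ℚ) • (z - z') := by rw [h3, h3']; module
    have h5 := mn _ (sub_mem hz hz') fun h0 => h (by rw [← sub_eq_zero, h4, h0, smul_zero])
    have h6 : B (e - e') (e - e') = 4 * B (z - z') (z - z') := by
      rw [h4]; simp only [map_smul, LinearMap.smul_apply, smul_eq_mul]; ring
    simp only [map_sub B (e), map_sub (B _) e, LinearMap.sub_apply, hs e' e] at h6
    linarith
  have o : ∀ e ∈ F, ∀ e' ∈ F, e ≠ e' → e ≠ -e' → B e e' = 0 := fun e h e' h' n n' => by
    have := o1 e h _ (neg e' h') n'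
    rw [map_neg] at this
    linarith [o1 e h e' h' n]
  have XF : ∀ (n : ℕ), ∀ e ∈ F, (X ^ n) e ∈ F := fun n => by
    induction n with
    | zero => exact fun e h => h
    | succ n ih =>
      rintro _ ⟨h1, h2, z, hz, rfl⟩
      exact ih _ ⟨XN _ h1, (hX _ _).trans h2, X z, XN z hz, by rw [map_add, Xs, map_zsmul]⟩
  have Xn : ∀ (n : ℕ) a b, B ((X ^ n) a) ((X ^ n) b) = B a b := fun n => by
    induction n with
    | zero => exact fun a b => rfl
    | succ n ih => exact fun a b => (ih (X a) (X b)).trans (hX a b)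
  have fx : ∀ (n : ℕ) a, X a = a → (X ^ n) a = a := fun n a h => Module.End.pow_apply X n a ▸
    Function.IsFixedPt.iterate h n
  have key : ∀ e ∈ F, B s e = 0 → B u e ^ 2 = 1 ∧ ∀ p q, B
      (Option.elim p s fun i : ZMod 23 => (X ^ i.val) e)
      (Option.elim q s fun i : ZMod 23 => (X ^ i.val) e) = if p = q then 8 else 0 := by
    intro e he se
    have h1 : ∀ k : ZMod 23, k ≠ 0 → B e ((X ^ k.val) e) = 0 := fun k hk => by
      by_contra h
      have h2 : (X ^ k.val) ((X ^ k.val) e) = e := by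
        by_cases h3 : e = (X ^ k.val) e
        · rw [← h3, ← h3]
        · have h4 : e = -(X ^ k.val) e := by_contra fun h4 => h (o _ he _ (XF _ _ he) h3 h4)
          rw [neg_eq_iff_eq_neg.mp h4.symm, map_neg, ← h4]
      have h3 : X e = e := by
        have a : Function.IsPeriodicPt X (k.val + k.val) e := by
          rw [Function.IsPeriodicPt, Function.IsFixedPt, ← Module.End.pow_apply, pow_add]; exact h2
        have b : Function.IsPeriodicPt X 23 e := by
          rw [Function.IsPeriodicPt, Function.IsFixedPt, ← Module.End.pow_apply, h23]; rfl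
        have c := a.gcd b
        rwa [(by decide : ∀ k : ZMod 23, k ≠ 0 → (k.val + k.val).gcd 23 = 1) k hk] at c
      obtain ⟨c, hc⟩ := int_of_ev B hs N ev u hu e he.1
      obtain ⟨a, b, h4⟩ := hf e h3
      have h5 := he.2.1
      rw [hs] at se
      rw [h4] at hc se h5
      simp only [map_add, map_smul, LinearMap.add_apply, LinearMap.smul_apply, smul_eq_mul, hs t u,
        uu, ut, tt, us, ts] at hc se h5
      have h6 : c * c = 23 := by
        obtain rfl : a = 5 * b / 3 := by linarith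
        have : (c : ℚ) * c = 23 := by rw [← hc]; linarith
        exact_mod_cast this
      have : c < 5 ∧ -5 < c := by constructor <;> nlinarith
      obtain ⟨_, _⟩ := this
      interval_cases c <;> simp at h6
    have h2 : ∀ p q, B (Option.elim p s fun i : ZMod 23 => (X ^ i.val) e)
        (Option.elim q s fun i : ZMod 23 => (X ^ i.val) e) = if p = q then 8 else 0 := by
      rintro (_ | i) (_ | j)
      · simpa using ss
      · simpa using (fx j.val s Xs ▸ Xn j.val s e).trans se
      · simpa using (hs _ _).trans ((fx i.val s Xs ▸ Xn i.val s e).trans se)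
      · by_cases h : i = j
        · simpa [h, Xn] using he.2.1
        · have : X ^ j.val = X ^ i.val * X ^ (j - i).val := by
            rw [← pow_add, pow_eq_pow_mod (_ + _) h23, ← ZMod.val_add, add_sub_cancel]
          simpa [h, this, Xn] using h1 _ (sub_ne_zero.mpr (Ne.symm h))
    refine ⟨?_, h2⟩
    have h3 := congrArg (B u) (parseval h24 B h2 u)
    have h4 : ∀ n : ℕ, B u ((X ^ n) e) = B u e := fun n => by
      conv_lhs => rw [← fx n u Xu, Xn]
    simp [Fintype.sum_option, h4, us, uu] at h3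
    linarith
  obtain ⟨e, he, se, ue⟩ : ∃ e ∈ F, B s e = 0 ∧ B u e = 1 := by
    have sF : s ∈ F := ⟨sN, ss, 0, zero_mem _, by simp⟩
    obtain ⟨e, he, h⟩ := Set.exists_mem_notMem_of_ncard_lt_ncard (s := {s, -s}) (t := F)
      (((Set.ncard_insert_le _ _).trans_eq (by rw [Set.ncard_singleton])).trans_lt
        (by rw [h48]; norm_num))
    simp only [Set.mem_insert_iff, Set.mem_singleton_iff, not_or] at h
    have se := (hs _ _).trans (o e he s sF h.1 h.2)
    rcases sq_eq_one_iff.mp (key e he se).1 with h | h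
    · exact ⟨e, he, se, h⟩
    · exact ⟨-e, neg e he, by rw [map_neg, se, neg_zero], by rw [map_neg, h, neg_neg]⟩
  refine ⟨_, ?_, (key e he se).2, rfl, fun i => ?_, fun i => ?_⟩
  · rintro (_ | i)
    · exact ⟨0, zero_mem _, by simp⟩
    · exact (XF _ e he).2.2
  · show X ((X ^ i.val) e) = (X ^ (i + 1).val) e
    rw [ZMod.val_add, ← pow_eq_pow_mod _ h23, add_comm, pow_add]
    rfl
  · show B u ((X ^ i.val) e) = 1
    rw [← fx i.val u Xu, Xn, ue]

theorem short : ∃ z ∈ N, B z z = 4 ∧ B z u = -1 ∧ B z t = 3 := by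
  obtain ⟨v, h1, h2, h3, -, h4⟩ :=
    frame h24 B hs N fg sp ev mn sd X hX XN h23 hu ht Xu Xt uu ut tt hf
  obtain ⟨z, hz, e⟩ := h1 (some 0)
  have h5 : t - u + z = (1 / 2 : ℚ) • (v none + v (some 0)) := by rw [e, h3]; module
  have a := h2 none none
  have b := h2 none (some 0)
  have c := h2 (some 0) (some 0)
  have d := h4 0
  refine ⟨_, add_mem (sub_mem ht hu) hz, ?_⟩
  rw [h5]
  rw [h3] at a b
  simp only [map_add, map_smul, map_sub, LinearMap.add_apply, LinearMap.smul_apply, h3,
    LinearMap.sub_apply, smul_eq_mul, hs t u, uu, ut, tt, hs (v _) u, hs (v _) t, if_true,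
    reduceCtorEq, if_false] at a b c d ⊢
  refine ⟨?_, ?_, ?_⟩ <;> linarith

end Cfsg.Agent.H4.LeechId
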