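import Cfsg.Agent.H4.ThetaFrameB

/-!
# Frames in an even unimodular lattice of rank 24 without roots
-/

set_option autoImplicit false

namespace Cfsg.Agent.H4.Theta

open Function Module

variable {U : Type*} [AddCommGroup U] [Module ℚ U] [FiniteDimensional ℚ U]
  (h24 : finrank ℚ U = 24) (B : LinearMap.BilinForm ℚ U) (hs : ∀ x y, B x y = B y x)
  (N : Submodule ℤ U) (fg : N.FG) (sp : Submodule.span ℚ (N : Set U) = ⊤)
  (ev : ∀ x ∈ N, ∃ k : ℤ, B x x = 2 * k) (mn : ∀ x ∈ N, x ≠ 0 → 4 ≤ B x x)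
  (sd : ∀ y, (∀ x ∈ N, ∃ k : ℤ, B y x = k) → y ∈ N)
include h24 hs fg sp ev mn sd

open Complex Real in
theorem counts : ∃ g : N → ℕ, (∀ x : N, B x x = 2 * g x) ∧ Nat.card (g ⁻¹' {2}) = 196560 ∧
    Nat.card (g ⁻¹' {3}) = 16773120 ∧ Nat.card (g ⁻¹' {4}) = 398034000 := by
  have int : ∀ x ∈ N, ∀ y ∈ N, ∃ k : ℤ, B x y = k := fun x hx y hy => by
    obtain ⟨a, ha⟩ := ev x hx
    obtain ⟨b, hb⟩ := ev y hy
    obtain ⟨c, hc⟩ := ev _ (add_mem hx hy)
    simp only [map_add, LinearMap.add_apply, hs y x] at hc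
    exact ⟨c - a - b, by push_cast; linarith⟩
  obtain ⟨b, hb⟩ := LinearMap.BilinForm.exists_orthogonal_basis (B := B) ⟨hs⟩
  choose t ht using fun i => multiple_mem_span_of_mem_localization_span (nonZeroDivisors ℤ) ℚ
    (N : Set U) (b i) (sp ▸ Submodule.mem_top)
  simp only [Submodule.span_eq] at ht
  let v := (b.unitsSMul fun i => Units.mk0 ((t i : ℤ) : ℚ)
    (Int.cast_ne_zero.mpr (nonZeroDivisors.coe_ne_zero _))).reindex (finCongr h24)
  have vN : ∀ i, v i ∈ N := fun i => by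
    simpa [v, Basis.unitsSMul_apply, Submonoid.smul_def, Int.cast_smul_eq_zsmul] using ht _
  have vo : ∀ i j, i ≠ j → B (v i) (v j) = 0 := fun i j h => by
    have := LinearMap.isOrthoᵢ_def.mp hb ((finCongr h24).symm i) ((finCongr h24).symm j)
      (by simpa using h)
    simp [v, Basis.unitsSMul_apply, Units.smul_def, -finCongr_symm, this]
  obtain ⟨f, K, hd, hf⟩ := theta_fe (B := B) v.equivFun (fun i => B (v i) (v i))
    (fun i => lt_of_lt_of_le (by norm_num) (mn _ (vN i) (v.ne_zero i))) (fun x y => by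
      conv_lhs => rw [← v.sum_repr x, ← v.sum_repr y]
      simp only [map_sum, map_smul, LinearMap.sum_apply, LinearMap.smul_apply, smul_eq_mul]
      refine Finset.sum_congr rfl fun i _ => ?_
      rw [Finset.sum_eq_single i (fun j _ h => by rw [vo j i h, mul_zero]) (by simp)]
      simp only [Basis.equivFun_apply]
      ring) fg (fun n => by
      rw [Basis.equivFun_symm_apply]
      exact sum_mem fun i _ => by simpa [Int.cast_smul_eq_zsmul] using N.smul_mem (n i) (vN i))
      int sd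
  simp only [← hasSum_subtype_iff_indicator] at hf
  have hg : ∀ x : N, ∃ k : ℕ, B x x = 2 * k := fun x => by
    obtain ⟨k, hk⟩ := ev x x.2
    have : (0 : ℚ) ≤ k := by
      by_cases h : (x : U) = 0
      · simp [h] at hk; simp [hk]
      · linarith [mn x x.2 h]
    lift k to ℕ using by exact_mod_cast this
    exact ⟨k, by simpa using hk⟩
  choose g hg using hg
  have hq : ∀ τ : UpperHalfPlane, HasSum (fun k ↦ (Nat.card (g ⁻¹' {k}) : ℂ) • Periodic.qParam 1 τ ^ k) (f τ) :=
    fun τ => by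
      convert! (hf τ τ.2).1.tsum_fiberwise g using 2 with k
      rw [Nat.cast_smul_eq_nsmul, ← tsum_const]
      refine tsum_congr fun ⟨x, hx⟩ => ?_
      simp only [comp, gt, hg, show g x = k from hx, Periodic.qParam, ← Complex.exp_nat_mul]
      push_cast
      ring_nf
  have h1 : K = 1 := by
    obtain ⟨h1, h2⟩ := hf I (by simp)
    have h3 : ∀ x : N, 0 < (gt B I x).re := fun x => by
      rw [gt, show π * I * I * B x x = ((-π * B x x : ℝ) : ℂ) by
        rw [mul_assoc _ I I, I_mul_I]; push_cast; ring, exp_ofReal_re]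
      exact Real.exp_pos _
    have h4 := hasSum_lt (i := 0) (fun x => (h3 x).le) (h3 0) hasSum_zero (Complex.hasSum_re h1)
    rw [div_I, neg_mul, neg_neg, one_mul, show 12 = 4 * 3 from rfl, pow_mul, I_pow_four, one_pow,
      mul_one, eq_comm, mul_eq_right₀ fun h => by simp [h] at h4] at h2
    exact h2
  obtain ⟨F, hF⟩ := ex_form hq hd fun τ hτ => by rw [(hf τ hτ).2, h1, one_mul]
  have h2 : ∀ x : N, g x < 2 → x = 0 := fun x h => by_contra fun h0 => by
    have := mn x x.2 (by simpa using h0)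
    rw [hg] at this
    have : (2 : ℚ) ≤ g x := by linarith
    exact h.not_ge (by exact_mod_cast this)
  have h0 : g 0 = 0 := by simpa using hg 0
  refine ⟨g, hg, ?_⟩
  suffices _ ∧ _ by exact_mod_cast coeff12 F hF this.1 this.2
  constructor
  · rw [show g ⁻¹' {0} = {0} from Set.eq_singleton_iff_unique_mem.mpr
      ⟨h0, fun x hx => h2 x (by rw [show g x = 0 from hx]; norm_num)⟩]
    simp
  · rw [show g ⁻¹' {1} = ∅ from Set.eq_empty_of_forall_notMem fun x (hx : g x = 1) => by
      have := h2 x (by omega); subst this; omega]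
    simp

theorem frame48 {s : U} (hN : s ∈ N) (h8 : B s s = 8) :
    {e | e ∈ N ∧ B e e = 8 ∧ ∃ z ∈ N, e = s + (2 : ℤ) • z}.ncard = 48 := by
  classical
  obtain ⟨g, hg, n2, n3, n4⟩ := counts h24 B hs N fg sp ev mn sd
  have : Submodule.IsLattice ℚ N := ⟨fg, sp⟩
  have : NeZero 2 := ⟨two_ne_zero⟩
  have cQ : Nat.card (ModN N 2) = 2 ^ 24 := by
    rw [ModN.natCard_eq, ← h24, finrank, Submodule.IsLattice.rank' ℚ N, finrank]
  have := Fintype.ofFinite (ModN N 2)
  have hπ : ∀ a b : N, ModN.mkQ 2 a = ModN.mkQ 2 b ↔ ∃ z : N, (a : U) = b + (2 : ℤ) • z :=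
    fun a b => (Submodule.Quotient.eq _).trans (exists_congr fun z => by
      rw [eq_sub_iff_add_eq', eq_comm, Subtype.ext_iff]; rfl)
  have g2 : ∀ x : N, x ≠ 0 → 2 ≤ g x := fun x h0 => by
    have := mn x x.2 (by simpa using h0)
    rw [hg] at this
    exact_mod_cast (by linarith : (2 : ℚ) ≤ g x)
  have g0 : g 0 = 0 := by simpa using hg 0
  have gn : ∀ x, g (-x) = g x := fun x => by simpa [hg x, eq_comm] using hg (-x)
  have key : ∀ a b : N, g a ≤ 4 → g b ≤ 4 → ModN.mkQ 2 a = ModN.mkQ 2 b → a ≠ b → a ≠ -b →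
      g a = 4 ∧ g b = 4 ∧ B a b = 0 := fun a b ha hb h h1 h2 => by
    obtain ⟨z, e⟩ := (hπ a b).mp h
    have k1 := mn z z.2 fun h => h1 (Subtype.ext (by simpa [h] using e))
    have k2 := mn _ (add_mem z.2 b.2) fun h => h2 (Subtype.ext (by
      rw [e, eq_neg_of_add_eq_zero_left h, Submodule.coe_neg]; abel))
    have k3 := hg a
    have k4 := hg b
    have ha' : (g a : ℚ) ≤ 4 := by exact_mod_cast ha
    have hb' : (g b : ℚ) ≤ 4 := by exact_mod_cast hb
    rw [e] at k3 ⊢
    simp only [two_zsmul, map_add, LinearMap.add_apply, hs z b] at k2 k3 ⊢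
    exact ⟨by exact_mod_cast (by linarith : (g a : ℚ) = 4),
      by exact_mod_cast (by linarith : (g b : ℚ) = 4), by linarith⟩
  have fin : ∀ {k n}, Nat.card (g ⁻¹' {k}) = n + 1 → (g ⁻¹' {k}).Finite := fun h =>
    Nat.finite_of_card_ne_zero (by omega)
  obtain ⟨T, hT⟩ : ∃ T : Finset N, ∀ x, x ∈ T ↔ g x ≤ 4 :=
    ⟨((((fin n2).union (fin n3)).union (fin n4)).insert 0).toFinset, fun x => by
      by_cases h : x = 0
      · simp [h, g0]
      · have := g2 x h
        simp only [Set.Finite.mem_toFinset, Set.mem_insert_iff, h, Set.mem_union, Set.mem_preimage,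
          Set.mem_singleton_iff, false_or]
        omega⟩
  let w : ℕ → ℕ := fun k => if k = 0 then 48 else if k = 4 then 1 else 24
  have cT : ∀ k ≤ 4, (T.filter (g · = k)).card = Nat.card (g ⁻¹' {k}) := fun k hk => by
    rw [Nat.card_coe_set_eq, ← Set.ncard_coe_finset]
    congr 1; ext x; simp +contextual [hT, hk]
  have tot : ∑ x ∈ T, w (g x) = 48 * 2 ^ 24 := by
    rw [← Finset.sum_fiberwise_of_maps_to' (t := Finset.range 5) (g := g)
      (fun x hx => by simpa [Nat.lt_succ_iff] using (hT x).mp hx)]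
    have e0 : T.filter (g · = 0) = {0} := by
      ext x
      by_cases h : x = 0
      · simp [h, g0, hT]
      · have := g2 x h
        simp only [Finset.mem_filter, Finset.mem_singleton, h, iff_false]; omega
    have e1 : T.filter (g · = 1) = ∅ := Finset.filter_eq_empty_iff.mpr fun x _ h => by
      by_cases h0 : x = 0
      · simp [h0, g0] at h
      · have := g2 x h0; omega
    simp [Finset.sum_range_succ, e0, e1, cT, -Nat.card_coe_set_eq, n2, n3, n4, w]
  have le : ∀ q, ∑ x ∈ T with ModN.mkQ 2 x = q, w (g x) ≤ 48 := fun q => by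
    set F := T.filter (ModN.mkQ 2 · = q)
    have hF : ∀ x, x ∈ F ↔ g x ≤ 4 ∧ ModN.mkQ 2 x = q := fun x => by simp [F, hT]
    have k : ∀ a ∈ F, ∀ b ∈ F, a ≠ b → a ≠ -b → g a = 4 ∧ g b = 4 ∧ B a b = 0 := fun a ha b hb =>
      key a b ((hF a).mp ha).1 ((hF b).mp hb).1 (((hF a).mp ha).2.trans ((hF b).mp hb).2.symm)
    by_cases h : ∃ a ∈ F, g a ≠ 4
    · obtain ⟨a, ha, h⟩ := h
      refine (Finset.sum_le_sum_of_subset (t := {a, -a}) fun b hb => by
        by_contra h1
        simp only [Finset.mem_insert, Finset.mem_singleton, not_or] at h1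
        exact h (k b hb a ha h1.1 h1.2).2.1).trans ?_
      by_cases h0 : a = 0
      · simp [h0, g0, w]
      · have := g2 a h0
        refine (Finset.sum_le_card_nsmul _ _ 24 ?_).trans (Nat.mul_le_mul_right 24 Finset.card_le_two)
        simp [gn, w, h, show g a ≠ 0 by omega]
    push Not at h
    rw [Finset.sum_congr rfl (g := fun _ => 1) fun x hx => by simp [w, h x hx], ← Finset.card_eq_sum_ones]
    let R := F.filter fun x => WellOrderingRel x (-x)
    have h1 : R.card ≤ 24 := by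
      rw [← h24, ← Fintype.card_coe]
      refine (LinearMap.linearIndependent_of_isOrthoᵢ (B := B) (v := fun x : R => ((x : N) : U))
        (LinearMap.isOrthoᵢ_def.mpr fun a b hab => ?_) fun a => ?_).fintype_card_le_finrank
      · obtain ⟨ha, ha'⟩ := Finset.mem_filter.mp a.2
        obtain ⟨hb, hb'⟩ := Finset.mem_filter.mp b.2
        refine (k a ha b hb (fun h => hab (Subtype.ext h)) fun h => ?_).2.2
        rw [h, neg_neg] at ha'
        exact asymm ha' hb'
      · rw [hg, h _ (Finset.mem_filter.mp a.2).1]; norm_num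
    refine (Finset.card_le_card (t := R ∪ R.image Neg.neg) fun x hx => ?_).trans
      ((Finset.card_union_le _ _).trans (by have := Finset.card_image_le (s := R) (f := Neg.neg); omega))
    rcases trichotomous_of WellOrderingRel x (-x) with h2 | h2 | h2
    · exact Finset.mem_union_left _ (Finset.mem_filter.mpr ⟨hx, h2⟩)
    · have h3 := hg x
      rw [h x hx] at h3
      nth_rewrite 1 [h2] at h3
      rw [Submodule.coe_neg, map_neg, LinearMap.neg_apply, hg, h x hx] at h3
      norm_num at h3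
    · refine Finset.mem_union_right _ (Finset.mem_image.mpr ⟨-x, Finset.mem_filter.mpr
        ⟨(hF _).mpr ⟨gn x ▸ ((hF x).mp hx).1, ?_⟩, by rwa [neg_neg]⟩, neg_neg x⟩)
      exact ((hπ _ _).mpr ⟨-x, by rw [Submodule.coe_neg]; abel⟩).trans ((hF x).mp hx).2
  have gs : g ⟨s, hN⟩ = 4 := by
    have := hg ⟨s, hN⟩
    exact_mod_cast (by linarith : (g ⟨s, hN⟩ : ℚ) = 4)
  have h := (Finset.sum_eq_sum_iff_of_le (s := Finset.univ) fun q _ => le q).mp (by
    refine (by convert Finset.sum_fiberwise T (ModN.mkQ 2) fun x => w (g x) :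
      _ = ∑ x ∈ T, w (g x)).trans ?_
    rw [tot, Finset.sum_const, Finset.card_univ, ← Nat.card_eq_fintype_card,
      cQ, smul_eq_mul, mul_comm]) (ModN.mkQ 2 ⟨s, hN⟩) (Finset.mem_univ _)
  have h4 : ∀ x ∈ T.filter (ModN.mkQ 2 · = ModN.mkQ 2 (⟨s, hN⟩ : N)), g x = 4 := fun x hx => by
    by_contra h
    obtain ⟨h1, h2⟩ := Finset.mem_filter.mp hx
    exact h (key x _ ((hT x).mp h1) gs.le h2 (fun e => h (e ▸ gs)) fun e => h (by rw [e, gn, gs])).1
  rw [Finset.sum_congr rfl (g := fun _ => 1) fun x hx => by simp [w, h4 x hx],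
    ← Finset.card_eq_sum_ones, ← Set.ncard_coe_finset,
    ← Set.ncard_image_of_injective _ Subtype.val_injective] at h
  convert h using 2
  ext e
  refine ⟨fun ⟨h1, h2, z, hz, h3⟩ => ⟨⟨e, h1⟩, Finset.mem_filter.mpr ⟨(hT _).mpr ?_,
    (hπ _ _).mpr ⟨⟨z, hz⟩, h3⟩⟩, rfl⟩, ?_⟩
  · have := hg ⟨e, h1⟩
    exact_mod_cast (by linarith : (g ⟨e, h1⟩ : ℚ) ≤ 4)
  · rintro ⟨x, hx, rfl⟩
    obtain ⟨z, hz⟩ := (hπ _ _).mp (Finset.mem_filter.mp hx).2
    exact ⟨x.2, by rw [hg, h4 x hx]; norm_num, z, z.2, hz⟩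

end Cfsg.Agent.H4.Theta
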