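import Mathlib

/-!
# Weight twelve forms with vanishing first coefficient
-/

set_option autoImplicit false

namespace Cfsg.Agent.H4.Theta

open UpperHalfPlane ModularForm MatrixGroups EisensteinSeries Function Complex Real

set_option backward.isDefEq.respectTransparency.types false in
theorem ex_form {f : ℂ → ℂ} {c : ℕ → ℂ}
    (hf : ∀ τ : ℍ, HasSum (fun m ↦ c m • Periodic.qParam 1 τ ^ m) (f τ))
    (hd : DifferentiableOn ℂ f {z | 0 < z.im})
    (hS : ∀ τ : ℂ, 0 < τ.im → f (-1 / τ) = τ ^ 12 * f τ) :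
    ∃ F : ModularForm 𝒮ℒ 12, ∀ m, c m = (qExpansion 1 F).coeff m := by
  have hs : ∀ γ : SL(2, ℤ), (fun τ : ℍ => f τ) ∣[(12 : ℤ)] γ = fun τ : ℍ => f τ := by
    refine SlashInvariantForm.slash_action_generators_SL2Z ?_ ?_
    · ext z
      suffices f (-(↑z)⁻¹) * ((z : ℂ) ^ 12)⁻¹ = f z by
        rw [SL_slash_apply, UpperHalfPlane.modular_S_smul]
        simpa [denom, ModularGroup.S]
      rw [← one_div, ← neg_div, hS _ z.2]
      field_simp [z.ne_zero]
    · ext z
      have h := hf ((1 : ℝ) +ᵥ z)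
      rw [show Periodic.qParam 1 (((1 : ℝ) +ᵥ z : ℍ) : ℂ) = Periodic.qParam 1 z by
        simp [Periodic.qParam, ← exp_periodic (2 * π * Complex.I * z)]; ring_nf] at h
      rw [SL_slash_apply, denom, modular_T_smul, ModularGroup.T, h.unique (hf z)]
      simp
  let F : ModularForm 𝒮ℒ 12 :=
    { toFun τ := f τ
      slash_action_eq' := fun _ ⟨γ, hγ⟩ ↦ hγ ▸ hs γ
      holo' := UpperHalfPlane.mdifferentiable_iff.mpr
        (hd.congr fun z hz => by simp [ofComplex_apply_of_im_pos hz])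
      bdd_at_cusps' {c} hc := by
        rw [Subgroup.IsArithmetic.isCusp_iff_isCusp_SL2Z] at hc
        rw [OnePoint.isBoundedAt_iff_forall_SL2Z hc]
        intro γ _
        rw [hs]
        exact isBoundedAtImInfty_of_hasSum_qExpansion one_pos hf }
  exact ⟨F, ModularFormClass.qExpansion_coeff_unique (f := F) one_pos one_mem_strictPeriods_SL hf⟩

theorem coeff12 (F : ModularForm 𝒮ℒ 12) {c : ℕ → ℂ} (hF : ∀ m, c m = (qExpansion 1 F).coeff m)
    (c0 : c 0 = 1) (c1 : c 1 = 0) : c 2 = 196560 ∧ c 3 = 16773120 ∧ c 4 = 398034000 := by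
  let E12 : ModularForm 𝒮ℒ 12 := E (k := 12) (by norm_num)
  let E66 : ModularForm 𝒮ℒ 12 := ModularForm.mcast (by decide) (E₆.mul E₆)
  have e12 : ∀ m, (qExpansion 1 E12).coeff m = _ :=
    E_qExpansion_coeff (k := 12) (by norm_num) ⟨6, rfl⟩
  have e6 : ∀ m, (qExpansion 1 E₆).coeff m = _ := E_qExpansion_coeff (k := 6) (by norm_num) ⟨3, rfl⟩
  have b12 : bernoulli 12 = -691 / 2730 := by decide +kernel
  have b6 : bernoulli 6 = 1 / 42 := by decide +kernel
  have hq : ∀ m, (qExpansion 1 (F - ((691 / 756 : ℂ) • E12 + (65 / 756 : ℂ) • E66) :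
      ModularForm 𝒮ℒ 12)).coeff m = c m - (691 / 756 * (qExpansion 1 E12).coeff m +
        65 / 756 * (qExpansion 1 E₆ * qExpansion 1 E₆).coeff m) := fun m => by
    rw [hF, FunLike.coe_sub, ModularForm.qExpansion_sub one_pos one_mem_strictPeriods_SL,
      FunLike.coe_add, ModularForm.qExpansion_add one_pos one_mem_strictPeriods_SL,
      FunLike.coe_smul, FunLike.coe_smul,
      ModularForm.qExpansion_smul one_pos one_mem_strictPeriods_SL,
      ModularForm.qExpansion_smul one_pos one_mem_strictPeriods_SL,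
      ← ModularForm.qExpansion_mul one_pos one_mem_strictPeriods_SL]
    rfl
  have s2 : ArithmeticFunction.sigma 5 2 = 33 ∧ ArithmeticFunction.sigma 11 2 = 2049 := by
    decide +kernel
  have s3 : ArithmeticFunction.sigma 5 3 = 244 ∧ ArithmeticFunction.sigma 11 3 = 177148 := by
    decide +kernel
  have s4 : ArithmeticFunction.sigma 5 4 = 1057 ∧ ArithmeticFunction.sigma 11 4 = 4196353 := by
    decide +kernel
  have z := sturm_bound_levelOne (f := F - ((691 / 756 : ℂ) • E12 + (65 / 756 : ℂ) • E66))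
    (lt_of_lt_of_le (b := ((2 : ℕ) : ℕ∞)) (by decide) (PowerSeries.nat_le_order _ _ fun i hi => by
      rw [hq]
      interval_cases i <;>
        norm_num [PowerSeries.coeff_mul, Finset.Nat.antidiagonal_succ, e12, e6, b12, b6, c0, c1,
          -PowerSeries.coeff_zero_eq_constantCoeff]))
  have h0 : ∀ m, c m = _ := fun m => sub_eq_zero.mp ((hq m).symm.trans (by
    rw [z]; simp [qExpansion_zero]))
  clear_value E12 E66
  refine ⟨?_, ?_, ?_⟩ <;> rw [h0] <;>
    norm_num [PowerSeries.coeff_mul, Finset.Nat.antidiagonal_succ, e12, e6, b12, b6,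
      s2.1, s2.2, s3.1, s3.2, s4.1, s4.2, -PowerSeries.coeff_zero_eq_constantCoeff]

end Cfsg.Agent.H4.Theta
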