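import Cfsg.Agent.H4.ThetaFrameA

/-!
# Theta series of even unimodular lattices of rank 24
-/

set_option autoImplicit false

namespace Cfsg.Agent.H4.Theta

open Complex Real Function

theorem hasSum_mul {α β : Type*} {f : α → ℂ} {g : β → ℂ} {a b : ℂ} (h : HasSum f a)
    (k : HasSum g b) : HasSum (fun x : α × β => f x.1 * g x.2) (a * b) :=
  h.mul k (summable_mul_of_summable_norm (summable_norm_iff.mpr h.summable)
    (summable_norm_iff.mpr k.summable))

theorem hasSum_pi {n : ℕ} {f : Fin n → ℤ → ℂ} {a : Fin n → ℂ} (h : ∀ i, HasSum (f i) (a i)) :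
    HasSum (fun k : Fin n → ℤ => ∏ i, f i (k i)) (∏ i, a i) := by
  induction n with
  | zero => simp
  | succ n ih =>
    have h1 := ih (f := fun i => f i.succ) fun i => h i.succ
    have h2 := hasSum_mul (h 0) h1
    rw [Fin.prod_univ_succ, ← (Fin.consEquiv fun _ => ℤ).hasSum_iff]
    simpa [Function.comp_def, Fin.prod_univ_succ, Fin.consEquiv] using h2

theorem im_div {τ : ℂ} (hτ : 0 < τ.im) {m : ℚ} (hm : 0 < m) : 0 < (τ / m).im := by
  rw [← ofReal_ratCast, div_ofReal_im]; positivity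

theorem im_neg_inv {τ : ℂ} (hτ : 0 < τ.im) : 0 < (-1 / τ).im := by
  rw [div_eq_mul_inv, neg_one_mul, neg_im, inv_im, neg_div, neg_neg]
  exact div_pos hτ (normSq_pos.mpr fun h ↦ lt_irrefl 0 (zero_im ▸ h ▸ hτ))

theorem poisson1 {τ : ℂ} (hτ : 0 < τ.im) {m : ℚ} (hm : 0 < m) (c : ℚ) :
    HasSum (fun n : ℤ => cexp (π * I * (-1 / τ) * (m * (c - n) * (c - n))))
      (cexp (-(Real.log m) / 2 + log (-I * τ) / 2) * jacobiTheta₂ c (τ / m)) := by
  have h0 : τ ≠ 0 := fun h => by simp [h] at hτ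
  have m0 : (m : ℂ) ≠ 0 := by exact_mod_cast hm.ne'
  have h1 : -I * (τ / m) = ((m : ℝ)⁻¹ : ℝ) * (-I * τ) := by push_cast; ring
  have h2 : -I * τ ≠ 0 := by simp [h0]
  have h3 : (-I * (τ / m)) ^ (1 / 2 : ℂ) = cexp (-(Real.log m) / 2 + log (-I * τ) / 2) := by
    rw [cpow_def_of_ne_zero (by simp [h0, m0]), h1, log_ofReal_mul (by positivity) h2,
      Real.log_inv]
    push_cast; ring_nf
  rw [jacobiTheta₂_functional_equation, h3, ← mul_assoc, ← mul_assoc,
    mul_one_div_cancel (Complex.exp_ne_zero _), one_mul]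
  convert! (hasSum_jacobiTheta₂_term (c / (τ / m)) (im_neg_inv (im_div hτ hm))).mul_left
    (cexp (-π * I * c ^ 2 / (τ / m))) using 2 with n
  rw [jacobiTheta₂_term, ← Complex.exp_add]
  congr 1
  field_simp
  ring

theorem e_int (k : ℤ) : cexp (2 * π * I * ((k : ℚ) : ℂ)) = 1 := by
  rw [mul_comm, Rat.cast_intCast, exp_int_mul_two_pi_mul_I]

variable {U : Type*} [AddCommGroup U] [Module ℚ U] {B : LinearMap.BilinForm ℚ U}
  {N : Submodule ℤ U}

/-- The summand of the theta series. -/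
noncomputable def gt (B : LinearMap.BilinForm ℚ U) (τ : ℂ) (x : U) : ℂ := cexp (π * I * τ * B x x)

theorem theta_fe (φ : U ≃ₗ[ℚ] (Fin 24 → ℚ)) (m : Fin 24 → ℚ) (hm : ∀ i, 0 < m i)
    (hB : ∀ x y, B x y = ∑ i, m i * φ x i * φ y i) (fg : N.FG)
    (hL : ∀ n : Fin 24 → ℤ, φ.symm (fun i => n i) ∈ N)
    (int : ∀ x ∈ N, ∀ y ∈ N, ∃ k : ℤ, B x y = k) (sd : ∀ y, (∀ x ∈ N, ∃ k : ℤ, B y x = k) → y ∈ N) :
    ∃ (f : ℂ → ℂ) (K : ℂ), DifferentiableOn ℂ f {z | 0 < z.im} ∧ ∀ τ : ℂ, 0 < τ.im →
      HasSum ((N : Set U).indicator (gt B τ)) (f τ) ∧ f (-1 / τ) = K * τ ^ 12 * f τ := by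
  classical
  let P : (Fin 24 → ℤ) →ₗ[ℤ] U :=
    { toFun n := φ.symm fun i => n i
      map_add' a b := by rw [← map_add]; congr 1; ext; simp
      map_smul' a b := by rw [← map_zsmul]; congr 1; ext; simp }
  let D : (Fin 24 → ℤ) → U := fun n => φ.symm fun i => n i / m i
  have hP : ∀ n i, φ (P n) i = n i := fun n i => by simp [P]
  have hD : ∀ n i, φ (D n) i = n i / m i := fun n i => by simp [D]
  let L := (LinearMap.range P).submoduleOf N
  have : Module.Finite ℤ N := Module.Finite.iff_fg.mpr fg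
  have : Finite (N ⧸ L) := Module.finite_of_fg_torsion _ fun q => by
    obtain ⟨x, rfl⟩ := L.mkQ_surjective q
    obtain ⟨b, hb⟩ := IsLocalization.exist_integer_multiples_of_finite (nonZeroDivisors ℤ) (φ x)
    choose n hn using hb
    refine ⟨b, (Submodule.Quotient.mk_eq_zero _).mpr ⟨n, φ.injective (funext fun i => ?_)⟩⟩
    simpa [hP, Submonoid.smul_def] using hn i
  have := Fintype.ofFinite (N ⧸ L)
  let c : N ⧸ L → N := Quotient.out
  have hc : ∀ q x, q = L.mkQ x ↔ ∃ n, (c q : U) - P n = x := fun q x => by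
    conv_lhs => rw [← Quotient.out_eq' q]
    refine (Submodule.Quotient.eq L).trans (exists_congr fun n => ?_)
    exact ⟨fun h => (sub_eq_iff_eq_add'.mpr (eq_sub_iff_add_eq.mp h).symm),
      fun h => eq_sub_iff_add_eq.mpr (sub_eq_iff_eq_add'.mp h).symm⟩
  let J : N ⧸ L → ℂ → ℂ := fun q τ => ∏ i, jacobiTheta₂ (φ (c q) i) (τ / m i)
  have m0 : ∀ i, (m i : ℂ) ≠ 0 := fun i => by exact_mod_cast (hm i).ne'
  have k0 : (Fintype.card (N ⧸ L) : ℂ) ≠ 0 := Nat.cast_ne_zero.mpr Fintype.card_ne_zero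
  have h1 : ∀ τ : ℂ, 0 < τ.im → HasSum ((N : Set U).indicator (gt B τ))
      ((Fintype.card (N ⧸ L) : ℂ)⁻¹ * ∑ q, J q τ) := fun τ hτ => by
    have iD : Injective D := fun a b h => funext fun i => by
      have := (hD a i).symm.trans (h ▸ hD b i)
      exact_mod_cast (div_left_inj' (hm i).ne').mp this
    have h : ∀ q, HasSum ((Set.range D).indicator fun y => cexp (2 * π * I * B y (c q)) * gt B τ y)
        (J q τ) := fun q => by
      rw [← iD.hasSum_iff (fun x hx => Set.indicator_of_notMem hx _)]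
      convert hasSum_pi fun i => hasSum_jacobiTheta₂_term (φ (c q) i) (im_div hτ (hm i)) using 2
        with n
      simp only [comp, Set.indicator_of_mem (Set.mem_range_self n), gt, jacobiTheta₂_term, hB, hD,
        ← Complex.exp_add, ← Complex.exp_sum]
      push_cast
      simp only [Finset.mul_sum, ← Finset.sum_add_distrib]
      refine congrArg _ (Finset.sum_congr rfl fun i _ => ?_)
      have := m0 i
      field_simp
    convert! (hasSum_sum fun q _ => h q).mul_left (Fintype.card (N ⧸ L) : ℂ)⁻¹ using 2 with y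
    rw [eq_inv_mul_iff_mul_eq₀ k0]
    by_cases hy : y ∈ N
    · have : y ∈ Set.range D := by
        choose n hn using fun i => int _ (hL (Pi.single i 1)) y hy
        refine ⟨n, φ.injective (funext fun i => ?_)⟩
        rw [hD, ← hn, hB, div_eq_iff (hm i).ne']
        simp [Pi.single_apply, mul_comm]
      simp only [Set.indicator_of_mem this, Set.indicator_of_mem hy]
      rw [Finset.sum_congr rfl fun q _ => by
        obtain ⟨k, hk⟩ := int y hy _ (c q).2
        rw [hk, e_int, one_mul]]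
      simp
    rw [Set.indicator_of_notMem hy, mul_zero, eq_comm]
    by_cases h : y ∈ Set.range D
    swap
    · simp [Set.indicator_of_notMem h]
    simp only [Set.indicator_of_mem h, ← Finset.sum_mul]
    refine mul_eq_zero_of_left (by_contra fun hS => hy (sd y fun x hx => ?_)) _
    obtain ⟨n, rfl⟩ := h
    have h2 := Equiv.sum_comp (Equiv.addRight (L.mkQ ⟨x, hx⟩)) fun q =>
      cexp (2 * π * I * B (D n) (c q))
    rw [Finset.sum_congr rfl (g := fun q => cexp (2 * π * I * B (D n) (c q)) *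
      cexp (2 * π * I * B (D n) x)) fun q _ => ?_, ← Finset.sum_mul, mul_eq_left₀ hS,
      Complex.exp_eq_one_iff] at h2
    · obtain ⟨k, hk⟩ := h2
      rw [mul_comm, mul_left_inj' two_pi_I_ne_zero] at hk
      exact ⟨k, by exact_mod_cast hk⟩
    obtain ⟨l, hl⟩ := (hc (q + L.mkQ ⟨x, hx⟩) (c q + ⟨x, hx⟩)).mp (by
      rw [map_add]; congr 1; exact (Quotient.out_eq' q).symm)
    have h3 : B (D n) (P l) = (∑ i, n i * l i : ℤ) := by
      simp only [hB, hD, hP]
      push_cast
      exact Finset.sum_congr rfl fun i _ => by have := (hm i).ne'; field_simp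
    rw [Equiv.coe_addRight, sub_eq_iff_eq_add.mp hl, map_add, h3, Submodule.coe_add, map_add,
      Rat.cast_add, Rat.cast_add, mul_add, mul_add, Complex.exp_add, Complex.exp_add, e_int, mul_one]
  refine ⟨fun τ => (Fintype.card (N ⧸ L) : ℂ)⁻¹ * ∑ q, J q τ,
    Fintype.card (N ⧸ L) * cexp (∑ i, -(Real.log (m i)) / 2), fun τ hτ => ?_, fun τ hτ =>
    ⟨h1 τ hτ, (h1 _ (im_neg_inv hτ)).unique ?_⟩⟩
  · refine DifferentiableAt.differentiableWithinAt (.const_mul (.fun_sum fun q _ =>
      .fun_finsetProd fun i _ => ?_) _)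
    exact DifferentiableAt.comp (f := fun τ : ℂ => τ / m i) τ
      (differentiableAt_jacobiTheta₂_snd _ (im_div hτ (hm i))) (by fun_prop)
  have h : ∀ q, HasSum ((Set.range fun n => (c q : U) - P n).indicator (gt B (-1 / τ)))
      (cexp (∑ i, -(Real.log (m i)) / 2) * τ ^ 12 * J q τ) := fun q => by
    rw [← Injective.hasSum_iff (g := fun n => (c q : U) - P n) (fun a b h => funext fun i => by
      have := (hP a i).symm.trans (sub_right_injective h ▸ hP b i)
      exact_mod_cast this) (fun x hx => Set.indicator_of_notMem hx _)]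
    convert hasSum_pi fun i => poisson1 hτ (hm i) (φ (c q) i) using 2 with n
    · rw [comp, Set.indicator_of_mem (Set.mem_range_self n), gt, hB]
      simp only [map_sub, Pi.sub_apply, hP, ← Complex.exp_sum]
      push_cast
      rw [Finset.mul_sum]
    · have h0 : -I * τ ≠ 0 := by simpa using fun h => by simp [h] at hτ
      rw [Finset.prod_mul_distrib, ← Complex.exp_sum, Finset.sum_add_distrib, Complex.exp_add,
        Finset.sum_const, show _ • (log (-I * τ) / 2) = (12 : ℕ) * log (-I * τ) by simp; ring,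
        Complex.exp_nat_mul, exp_log h0, mul_pow, neg_pow, show 12 = 4 * 3 from rfl, pow_mul I,
        I_pow_four]
      norm_num [J]
  convert hasSum_sum (s := Finset.univ) fun q _ => h q using 1
  · ext y
    by_cases hy : y ∈ N
    · rw [Finset.sum_eq_single (L.mkQ ⟨y, hy⟩) (fun q _ hq => Set.indicator_of_notMem
        (fun h => hq ((hc q ⟨y, hy⟩).mpr (Set.mem_range.mp h))) _) (by simp),
        Set.indicator_of_mem hy, Set.indicator_of_mem (Set.mem_range.mpr ((hc _ ⟨y, hy⟩).mp rfl))]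
    · rw [Set.indicator_of_notMem hy, Finset.sum_eq_zero fun q _ => Set.indicator_of_notMem ?_ _]
      rintro ⟨n, rfl⟩
      exact hy (sub_mem (c q).2 (hL n))
  · rw [← Finset.mul_sum]
    field_simp

end Cfsg.Agent.H4.Theta
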